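import Mathlib
import Cfsg.Agent.H67.AltCov

/-! Representations of covers of alternating groups in which disjoint 3-cycles annihilate. -/

set_option autoImplicit false

namespace Cfsg.Agent.H67

open Equiv Equiv.Perm H3 Module

variable {α : Type} [DecidableEq α] [Fintype α] {G : Type*} [Group G] {π : G →* Perm α}
  {K V : Type*} [Field K] [AddCommGroup V] [Module K V] {ρ : G →* End K V}

/-- stabiliser through a homomorphism -/
def stb {M X : Type*} [Monoid M] [MulAction M X] (ρ : G →* M) (x : X) : Subgroup G :=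
  @MulAction.stabilizer G X _ (MulAction.compHom X ρ) x

theorem mem_stb {M X : Type*} [Monoid M] [MulAction M X] {ρ : G →* M} {x : X} {g : G} :
    g ∈ stb ρ x ↔ ρ g • x = x := Iff.rfl

variable (π ρ) in
/-- faithful modulo the centre -/
def NT : Prop := ∀ g, ρ g = 1 → π g = 1

variable (π ρ) in
/-- disjoint 3-cycles annihilate each other -/
def Star : Prop := ∀ s y, (π s).IsThreeCycle → s ^ 3 = 1 → y ^ 3 = 1 → Perm.Disjoint (π y) (π s) →
  ρ y * (ρ s - 1) = ρ s - 1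

variable (π ρ) in
/-- vectors fixed by the alternating group on `T` -/
def fx (T : Finset α) : Submodule K V where
  carrier := {v | ∀ g, g ^ 3 = 1 → π g ∈ Alt T → ρ g v = v}
  add_mem' := fun hv hw g h1 h2 => by rw [map_add, hv g h1 h2, hw g h1 h2]
  zero_mem' := fun _ _ _ => map_zero _
  smul_mem' := fun c v hv g h1 h2 => by rw [map_smul, hv g h1 h2]

theorem odd3 : Odd 3 := by decide

theorem Cov.nc (h : Cov π) {S : Finset α} (hS : 5 ≤ S.card) {c : End K V}
    (hc : ∀ g, π g ∈ Alt S → Commute (ρ g) c) {x : G} (hx : π x ∈ Alt S) (hx1 : π x ≠ 1)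
    (hk : ρ x * c = c) {y : G} (hy : π y ∈ Alt S) {m : ℕ} (hm : Odd m) (h1 : y ^ m = 1) :
    ρ y * c = c := by
  obtain ⟨π', h2, h3⟩ := h.restrict S
  haveI : (stb (ρ.comp ((Alt S).comap π).subtype) c).Normal := ⟨fun n hn g => by
    have h4 : ρ n * c = c := hn
    change ρ (g * n * g⁻¹) * c = c
    rw [map_mul, map_mul, mul_assoc, (hc _ g⁻¹.2 :).eq, mul_assoc, ← mul_assoc (ρ n), h4,
      ← mul_assoc, (hc _ g.2).eq, mul_assoc, ← map_mul]
    simp⟩
  exact h2.mem_of_normal (by simpa using hS) (N := stb (ρ.comp ((Alt S).comap π).subtype) c)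
    (g := ⟨x, hx⟩) hk ((h3 _).not.2 hx1) (y := ⟨y, hy⟩) hm (Subtype.ext h1)

theorem kl_symm {x y : G} (hc : Commute x y) (h : ρ x * (ρ y - 1) = ρ y - 1) :
    ρ y * (ρ x - 1) = ρ x - 1 := by
  rw [mul_sub, mul_one, ← map_mul] at h ⊢
  rw [← hc.eq]
  exact sub_eq_sub_iff_sub_eq_sub.1 h

theorem Cov.star_of (h : Cov π) (h8 : 8 ≤ Fintype.card α) {S : Finset α} (hS : 5 ≤ S.card)
    {x y : G} (hx : π x ∈ Alt S) (hx1 : π x ≠ 1) (hy : π y ∈ Alt Sᶜ) (hy1 : π y ≠ 1)
    (hc : ∀ g, π g ∈ Alt S → Commute g y) (hk : ρ x * (ρ y - 1) = ρ y - 1) : Star π ρ := by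
  intro s z h1 h2 h3 h4
  obtain ⟨σ, h5, h6⟩ := exists_c3 (S := S) (by omega)
  obtain ⟨t, rfl, h7⟩ := h.exists_lift odd3 (h6.orderOf ▸ pow_orderOf_eq_one σ)
  obtain ⟨g, rfl⟩ := h.exists_conj odd3 h7 h2 (isConj_iff_cycleType_eq.2
    (h6.cycleType.trans h1.cycleType.symm)) (by rw [h6.card_support]; omega)
  have h9 := h.nc (S := (π t).supportᶜ) (by rw [Finset.card_compl, h6.card_support]; omega)
    (c := ρ t - 1) (fun k hk => (((h.comm odd3 h7 (commute_of_Alt (mem_Alt_support (h.even t))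
      hk).symm).map ρ).sub_right (Commute.one_right _)))
    (mem_Alt_compl (h.even y) (disjoint_of_Alt h5 hy).symm) hy1
    (kl_symm (hc t h5) (h.nc hS (fun k hk => ((hc k hk).map ρ).sub_right (Commute.one_right _))
      hx hx1 hk h5 odd3 h7)) (y := g⁻¹ * z * g⁻¹⁻¹)
    (mem_Alt_compl (h.even _) (by simpa [mul_assoc] using h4.conj (π g)⁻¹)) odd3
    (by rw [conj_pow, h3]; simp)
  simpa [mul_sub, sub_mul, ← map_mul, mul_assoc] using congrArg (ρ g * · * ρ g⁻¹) h9

theorem fx_anti {T T' : Finset α} (h : T ⊆ T') : fx π ρ T' ≤ fx π ρ T :=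
  fun _ hv g h1 h2 => hv g h1 (Alt_mono h h2)

theorem fx_map {T T' : Finset α} {v : V} (hv : v ∈ fx π ρ T) (g : G)
    (h : ∀ x ∈ T', (π g)⁻¹ x ∈ T) : ρ g v ∈ fx π ρ T' := fun k h1 h2 => by
  have := congrArg (ρ g) (hv (g⁻¹ * k * g⁻¹⁻¹) (by rw [conj_pow, h1]; simp)
    (by simpa using conj_mem_Alt h2 h))
  simpa [← End.mul_apply, ← map_mul, ← mul_assoc] using this

theorem Cov.mem_fx (h : Cov π) {T : Finset α} {v : V} (a b : α)
    (h1 : ∀ i ∈ T, i ≠ a → i ≠ b → ∃ g, ρ g v = v ∧ π g = c3 a b i) : v ∈ fx π ρ T :=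
  fun _ h2 h3 => h.mem_of_odd (L := stb ρ v) odd3 h2 (Alt_le a b h1 h3)

theorem Cov.mem_fx' (h : Cov π) {T : Finset α} {v : V} {a b : α} (hab : a ≠ b)
    (h1 : ∀ i ∈ T, ∃ T', a ∈ T' ∧ b ∈ T' ∧ i ∈ T' ∧ v ∈ fx π ρ T') : v ∈ fx π ρ T :=
  h.mem_fx a b fun i hi h2 h3 => by
    obtain ⟨T', h4, h5, h6, h7⟩ := h1 i hi
    obtain ⟨g, hg, h8⟩ := h.exists_lift odd3 (c3_cube hab h2 h3)
    exact ⟨g, h7 g h8 (hg ▸ c3_mem_Alt h4 h5 h6 hab h2), hg⟩

theorem Cov.fx_inter (h : Cov π) {A B C : Finset α} {v : V} (h1 : v ∈ fx π ρ Aᶜ)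
    (h2 : v ∈ fx π ρ Bᶜ) (h3 : A.card + B.card + 2 ≤ Fintype.card α) (h4 : A ∩ B ⊆ C) :
    v ∈ fx π ρ Cᶜ := by
  obtain ⟨a, -, b, -, h5, h6, hab⟩ := exists_two (S := Finset.univ) (T := A ∪ B)
    (by have := Finset.card_union_le A B; simp; omega)
  simp only [Finset.mem_union, not_or] at h5 h6
  refine h.mem_fx' hab fun i hi => (em (i ∈ A)).elim
    (fun h7 => ⟨Bᶜ, by simp [h5], by simp [h6], ?_, h2⟩) fun h7 => ⟨Aᶜ, by simp [h5], by simp [h6], by simp [h7], h1⟩
  exact Finset.mem_compl.2 fun h8 => Finset.mem_compl.1 hi (h4 (by simp [h7, h8]))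

theorem Cov.fx_lt (h : Cov π) (h0 : fx π ρ Finset.univ = ⊥) {T : Finset α} (hT : 2 ≤ T.card)
    {j : α} (hj : j ∉ T) (h1 : fx π ρ T ≠ ⊥) : fx π ρ (insert j T) < fx π ρ T := by
  refine (fx_anti (T.subset_insert j)).lt_of_ne fun h2 => h1 (eq_bot_iff.2 fun v hv => h0.le ?_)
  obtain ⟨a, ha, b, hb, hab⟩ := Finset.one_lt_card.1 hT
  refine h.mem_fx' hab fun i _ => ⟨insert i T, by simp [ha], by simp [hb], by simp, ?_⟩
  by_cases hi : i ∈ T
  · rwa [Finset.insert_eq_of_mem hi]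
  by_cases hij : i = j
  · rwa [hij, h2]
  obtain ⟨g, hg⟩ := h.surj (swap i j * swap a b) (by simp [hij, hab])
  have h3 := fx_map (T' := insert i T) (h2.ge (fx_map (T' := T) hv g⁻¹ fun x hx => by
    simp only [map_inv, inv_inv, hg, Perm.mul_apply, swap_apply_def]; grind)) g fun x hx => by
    simp only [hg, mul_inv_rev, swap_inv, Perm.mul_apply, swap_apply_def]; grind
  simpa [← End.mul_apply, ← map_mul] using h3

variable [FiniteDimensional K V]

theorem Cov.chain (h : Cov π) (h0 : fx π ρ Finset.univ = ⊥) {T T' : Finset α} (hT : 2 ≤ T.card)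
    (hTT : T ⊆ T') (h1 : fx π ρ T' ≠ ⊥) :
    finrank K (fx π ρ T') + T'.card ≤ finrank K (fx π ρ T) + T.card := by
  have key : ∀ D : Finset α, Disjoint D T → fx π ρ (D ∪ T) ≠ ⊥ →
      finrank K (fx π ρ (D ∪ T)) + D.card ≤ finrank K (fx π ρ T) := fun D => by
    induction D using Finset.induction_on with
    | empty => rw [Finset.empty_union]; simp
    | insert j D hj ih =>
      rw [Finset.disjoint_insert_left, Finset.insert_union, Finset.card_insert_of_notMem hj]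
      intro h2 h3
      have h4 := ne_bot_of_le_ne_bot h3 (fx_anti (Finset.subset_insert _ _))
      have := Submodule.finrank_lt_finrank_of_lt (h.fx_lt h0
        (hT.trans (Finset.card_le_card Finset.subset_union_right)) (j := j) (by simp [hj, h2.1]) h4)
      have := ih h2.2 h4
      omega
  have := key (T' \ T) Finset.sdiff_disjoint
  rw [Finset.sdiff_union_of_subset hTT] at this
  have := this h1
  have := Finset.card_sdiff_add_card_eq_card hTT
  omega

theorem exists_three {S T : Finset α} (h : T.card + 3 ≤ S.card) :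
    ∃ a ∈ S, ∃ b ∈ S, ∃ i ∈ S, a ∉ T ∧ b ∉ T ∧ i ∉ T ∧ a ≠ b ∧ i ≠ a ∧ i ≠ b := by
  obtain ⟨a, ha, b, hb, i, hi, h1, h2, h3⟩ := Finset.two_lt_card.1
    (show 2 < (S \ T).card from by have := Finset.le_card_sdiff T S; omega)
  rw [Finset.mem_sdiff] at ha hb hi
  exact ⟨a, ha.1, b, hb.1, i, hi.1, ha.2, hb.2, hi.2, h1, h2.symm, h3.symm⟩

theorem Cov.star_dims (h : Cov π) (h8 : 8 ≤ Fintype.card α) (hs : Star π ρ) (hn : NT π ρ)
    (h0 : fx π ρ Finset.univ = ⊥) :
    (∀ T : Finset α, 2 ≤ T.card → T.card + 3 ≤ Fintype.card α →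
      Fintype.card α ≤ finrank K (fx π ρ T) + T.card + 1) ∧
    ∀ T : Finset α, 3 ≤ T.card → fx π ρ T ≠ ⊥ → finrank K (fx π ρ T) + T.card ≤ finrank K V + 1 := by
  have h3 : ∀ {a b i : α}, a ≠ b → i ≠ a → i ≠ b → ({a, b, i} : Finset α).card = 3 :=
    fun h1 h2 h3 => Finset.card_eq_three.2 ⟨_, _, _, h1, h2.symm, h3.symm, rfl⟩
  have hR : ∀ {a b i : α} {s : G}, a ≠ b → i ≠ a → i ≠ b → π s = c3 a b i → s ^ 3 = 1 →
      LinearMap.range (ρ s - 1) ≤ fx π ρ {a, b, i}ᶜ := fun h1 h2 h3 h4 h5 => by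
    rintro _ ⟨v, rfl⟩ y h6 h7
    exact LinearMap.congr_fun (hs _ y (h4 ▸ isThreeCycle_c3 h1 h2 h3) h5 h6 (disjoint_of_Alt
      (h4 ▸ c3_mem_Alt (by simp) (by simp) (by simp) h1 h2) h7).symm) v
  have hK : ∀ {a b i : α} {s : G}, a ≠ b → i ≠ a → i ≠ b → π s = c3 a b i → s ^ 3 = 1 →
      fx π ρ {a, b, i} ≤ LinearMap.ker (ρ s - 1) := fun h1 h2 h3 h4 h5 v hv => by
    simpa [sub_eq_zero] using hv _ h5 (h4 ▸ c3_mem_Alt (by simp) (by simp) (by simp) h1 h2)
  have hZ : ∀ T : Finset α, T.card + 3 ≤ Fintype.card α → fx π ρ T ≠ ⊥ := fun T hT h1 => by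
    obtain ⟨a, -, b, -, i, -, h2, h4, h5, h6, h7, h9⟩ := exists_three (S := Finset.univ) hT
    obtain ⟨s, h10, h11⟩ := h.exists_lift odd3 (c3_cube h6 h7 h9)
    have := ((hR h6 h7 h9 h10 h11).trans (fx_anti (T := T) fun x hx => by grind [Finset.mem_compl])).trans h1.le
    rw [le_bot_iff, LinearMap.range_eq_bot, sub_eq_zero] at this
    exact (isThreeCycle_c3 h6 h7 h9).ne_one (h10 ▸ hn s this)
  have hM : ∀ {a b i : α} {s : G}, a ≠ b → i ≠ a → i ≠ b → π s = c3 a b i →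
      2 ≤ finrank K (LinearMap.range (ρ s - 1)) := fun {a b i s} h1 h2 h4 h5 => by
    obtain ⟨e, -, f, -, h6, h7, h9⟩ := exists_two (S := Finset.univ) (T := {a, b, i})
      (by simp [h3 h1 h2 h4]; omega)
    simp only [Finset.mem_insert, Finset.mem_singleton, not_or] at h6 h7
    obtain ⟨u, h10, h11⟩ := h.exists_lift odd3 (c3_cube h9 (Ne.symm h6.1) (Ne.symm h7.1))
    have h12 : ({e, f, a, b, i} : Finset α).card = 5 := by
      rw [Finset.card_insert_of_notMem (by simp [*]), Finset.card_insert_of_notMem (by simp [*]),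
        h3 h1 h2 h4]
    have h13 := h.chain h0 (T := {e, f, a}) (T' := {e, f, a, b, i})
      (by rw [h3 h9 (Ne.symm h6.1) (Ne.symm h7.1)]; omega) (by grind [Finset.mem_compl]) (hZ _ (by omega))
    have h14 := Submodule.finrank_mono (hK h9 (Ne.symm h6.1) (Ne.symm h7.1) h10 h11)
    have h15 : LinearMap.ker (ρ u - 1) ⊓ LinearMap.ker (ρ s - 1) ≤ fx π ρ {e, f, a, b, i} :=
      fun v hv => h.mem_fx e f fun k hk h15 h16 => by
        have h17 : u ∈ stb ρ v := by simpa [sub_eq_zero, mem_stb] using hv.1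
        have h18 : s ∈ stb ρ v := by simpa [sub_eq_zero, mem_stb] using hv.2
        have h19 := fun g (hg : g ∈ stb ρ v) => mul_mem (mul_mem hg h17) (inv_mem hg)
        simp only [Finset.mem_insert, Finset.mem_singleton, h15, h16, false_or] at hk
        rcases hk with rfl | rfl | rfl
        · exact ⟨u, h17, h10⟩
        · exact ⟨_, h19 s h18, by simp [h5, h10, c3_conj, c3_apply_of_ne, c3_first, *]⟩
        · exact ⟨_, h19 _ (mul_mem h18 h18), by
            simp only [map_mul, map_inv, h10, c3_conj]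
            simp [h5, c3_apply_of_ne, c3_first, c3_second, *]⟩
    have := Submodule.finrank_mono h15
    have := Submodule.finrank_sup_add_finrank_inf_eq (LinearMap.ker (ρ u - 1)) (LinearMap.ker (ρ s - 1))
    have := Submodule.finrank_le (LinearMap.ker (ρ u - 1) ⊔ LinearMap.ker (ρ s - 1))
    have := (ρ s - 1).finrank_range_add_finrank_ker
    rw [h12, h3 h9 (Ne.symm h6.1) (Ne.symm h7.1)] at h13
    omega
  refine ⟨fun T h1 h2 => ?_, fun T h1 h2 => ?_⟩
  · obtain ⟨a, -, b, -, i, -, h2, h4, h5, h6, h7, h9⟩ := exists_three (S := Finset.univ) h2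
    obtain ⟨s, h10, h11⟩ := h.exists_lift odd3 (c3_cube h6 h7 h9)
    have h12 := Finset.card_compl ({a, b, i} : Finset α)
    rw [h3 h6 h7 h9] at h12
    have := h.chain h0 (T' := {a, b, i}ᶜ) h1 (fun x hx => by grind [Finset.mem_compl]) (hZ _ (by omega))
    have := Submodule.finrank_mono (hR h6 h7 h9 h10 h11)
    have := hM h6 h7 h9 h10
    omega
  · obtain ⟨a, ha, b, hb, i, hi, -, -, -, h6, h7, h9⟩ := exists_three (S := T) (T := ∅) (by simpa)
    obtain ⟨s, h10, h11⟩ := h.exists_lift odd3 (c3_cube h6 h7 h9)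
    have := h.chain h0 (T := {a, b, i}) (by rw [h3 h6 h7 h9]; omega) (by grind [Finset.mem_compl]) h2
    have := Submodule.finrank_mono (hK h6 h7 h9 h10 h11)
    have := hM h6 h7 h9 h10
    have := (ρ s - 1).finrank_range_add_finrank_ker
    have := h3 h6 h7 h9
    omega

theorem Cov.star_bound (h : Cov π) (h8 : 8 ≤ Fintype.card α) (hs : Star π ρ) (hn : NT π ρ)
    (h0 : fx π ρ Finset.univ = ⊥) : Fintype.card α ≤ finrank K V + 2 ∧
      (Fintype.card α = finrank K V + 2 → (Fintype.card α : K) = 0) := by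
  obtain ⟨hL, hU⟩ := h.star_dims h8 hs hn h0
  have hL' : ∀ A : Finset α, A.card = 3 → 2 ≤ finrank K (fx π ρ Aᶜ) := fun A h1 => by
    have := hL Aᶜ
    rw [Finset.card_compl, h1] at this
    omega
  obtain ⟨o, -, j, -, l, -, -, -, -, hoj, hlo, hlj⟩ := exists_three (S := (Finset.univ : Finset α))
    (T := ∅) (by simp; omega)
  have h3 : ∀ {a b i : α}, a ≠ b → i ≠ a → i ≠ b → ({a, b, i} : Finset α).card = 3 :=
    fun h1 h2 h3 => Finset.card_eq_three.2 ⟨_, _, _, h1, h2.symm, h3.symm, rfl⟩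
  refine ⟨?_, fun hd => ?_⟩
  · have h1 := hL {o, j, l}
    have h2 := hU {o, j, l}
    rw [h3 hoj hlo hlj] at h1 h2
    have := h2 le_rfl fun h4 => by rw [h4, finrank_bot] at h1; omega
    omega
  have hU' : ∀ A : Finset α, A.card ≤ 4 → finrank K (fx π ρ Aᶜ) ≤ A.card - 1 := fun A h1 => by
    by_cases h2 : fx π ρ Aᶜ = ⊥
    · rw [h2, finrank_bot]; omega
    have := hU Aᶜ
    rw [Finset.card_compl] at this
    have := this (by omega) h2
    omega
  have hB : ∀ {i k m : α} {v : V}, v ∈ fx π ρ {i, k}ᶜ → v ∈ fx π ρ {i, m}ᶜ → k ≠ m → v = 0 :=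
    fun {i k m v} h1 h2 h4 => (Submodule.finrank_eq_zero.1 (by simpa using hU' {i})).le
      (h.fx_inter h1 h2 (C := {i}) (by
        have := Finset.card_le_two (a := i) (b := k)
        have := Finset.card_le_two (a := i) (b := m); omega) (by grind [Finset.mem_compl]))
  have hI : ∀ {a b i k : α} {v : V}, v ∈ fx π ρ {a, i, k}ᶜ → v ∈ fx π ρ {b, i, k}ᶜ → a ≠ b →
      v ∈ fx π ρ {i, k}ᶜ := fun {a b i k v} h1 h2 h4 => h.fx_inter h1 h2 (by
        have := Finset.card_le_three (a := a) (b := i) (c := k)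
        have := Finset.card_le_three (a := b) (b := i) (c := k); omega) (by grind [Finset.mem_compl])
  have hW : ∀ {i k : α}, i ≠ k → 1 ≤ finrank K (fx π ρ {i, k}ᶜ) := fun {i k} h1 => by
    obtain ⟨a, -, b, -, h2, h4, h5⟩ := exists_two (S := Finset.univ) (T := {i, k})
      (by have := Finset.card_le_two (a := i) (b := k); simp; omega)
    simp only [Finset.mem_insert, Finset.mem_singleton, not_or] at h2 h4
    have := hL' _ (h3 h2.1 (Ne.symm h2.2) h1.symm)
    have := hL' _ (h3 h4.1 (Ne.symm h4.2) h1.symm)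
    have := Submodule.finrank_sup_add_finrank_inf_eq (fx π ρ {a, i, k}ᶜ) (fx π ρ {b, i, k}ᶜ)
    have := Submodule.finrank_mono (show fx π ρ {a, i, k}ᶜ ⊓ fx π ρ {b, i, k}ᶜ ≤ fx π ρ {i, k}ᶜ from
      fun v hv => hI hv.1 hv.2 h5)
    have := Submodule.finrank_mono (show fx π ρ {a, i, k}ᶜ ⊔ fx π ρ {b, i, k}ᶜ ≤ fx π ρ {a, b, i, k}ᶜ
      from sup_le (fx_anti (by grind [Finset.mem_compl])) (fx_anti (by grind [Finset.mem_compl])))
    have := hU' {a, b, i, k} Finset.card_le_four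
    have := Finset.card_le_four (a := a) (b := b) (c := i) (d := k)
    omega
  obtain ⟨w, hw, hw0⟩ := (Submodule.ne_bot_iff _).1 (Submodule.one_le_finrank_iff.1 (hW hoj))
  obtain ⟨e, he⟩ : ∃ e : α → V, ∀ k, e k ∈ fx π ρ {k, o}ᶜ ∧ e k - w ∈ fx π ρ {k, j}ᶜ ∧
      (k = o → e k = 0) ∧ (k = j → e k = w) := by
    refine (Classical.skolem (p := fun k (x : V) => x ∈ fx π ρ {k, o}ᶜ ∧ x - w ∈ fx π ρ {k, j}ᶜ ∧
      (k = o → x = 0) ∧ (k = j → x = w))).1 fun k => ?_
    by_cases h1 : k = o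
    · exact ⟨0, zero_mem _, by simpa [h1] using hw, fun _ => rfl, fun h2 => (hoj (h1 ▸ h2)).elim⟩
    by_cases h2 : k = j
    · exact ⟨w, by rwa [h2, Finset.pair_comm], by simp, fun h4 => (h1 h4).elim, fun _ => rfl⟩
    have h4 : fx π ρ {k, o}ᶜ ⊔ fx π ρ {k, j}ᶜ = fx π ρ {o, j, k}ᶜ :=
      Submodule.eq_of_le_of_finrank_le (sup_le (fx_anti (by grind [Finset.mem_compl])) (fx_anti (by grind [Finset.mem_compl]))) (by
        have := Submodule.finrank_sup_add_finrank_inf_eq (fx π ρ {k, o}ᶜ) (fx π ρ {k, j}ᶜ)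
        rw [(Submodule.eq_bot_iff (_ ⊓ _)).2 fun v hv => hB hv.1 hv.2 hoj, finrank_bot] at this
        have := hW h1
        have := hW h2
        have := hU' {o, j, k}
        rw [h3 hoj h1 h2] at this
        omega)
    obtain ⟨x, hx, y, hy, rfl⟩ := Submodule.mem_sup.1 (h4.ge (fx_anti (by grind [Finset.mem_compl]) hw))
    exact ⟨x, hx, by simpa using hy, fun h4 => (h1 h4).elim, fun h4 => (h2 h4).elim⟩
  have hD : ∀ i k, e i - e k ∈ fx π ρ {i, k}ᶜ := fun i k => hI (a := o) (b := j)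
    (sub_mem (fx_anti (by grind [Finset.mem_compl]) (he i).1) (fx_anti (by grind [Finset.mem_compl]) (he k).1))
    (by simpa using sub_mem (fx_anti (T := {j, i, k}ᶜ) (by grind [Finset.mem_compl]) (he i).2.1)
          (fx_anti (by grind [Finset.mem_compl]) (he k).2.1)) hoj
  have hC : ∀ (σ : Perm α) (f : α → V) {a b : α}, (∀ i k, f i - f k ∈ fx π ρ {σ i, σ k}ᶜ) → a ≠ b →
      f a = f b → ∀ i, f i = f a := fun σ f a b h1 h2 h4 i =>
    sub_eq_zero.1 (hB (h1 i a) (h4 ▸ h1 i b) (σ.injective.ne h2))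
  have hN : ∀ {a b}, a ≠ b → e a - e b ≠ 0 := fun h1 h2 => hw0 (by
    have := hC 1 e hD h1 (sub_eq_zero.1 h2)
    rw [← (he j).2.2.2 rfl, this j, ← this o, (he o).2.2.1 rfl])
  obtain ⟨c, hc, a, ha⟩ := Fintype.not_linearIndependent_iff.1 fun h1 : LinearIndependent K
      (fun i => (e i, (1 : K))) => by
    have := h1.fintype_card_le_finrank
    simp at this
    omega
  simp only [Prod.ext_iff, Prod.fst_sum, Prod.snd_sum, Prod.smul_mk, smul_eq_mul, mul_one,
    Prod.fst_zero, Prod.snd_zero] at hc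
  suffices ∀ b, c b = c a by simpa [this, ha] using hc.2
  intro b
  by_contra h1
  have hab : a ≠ b := fun h => h1 (h ▸ rfl)
  obtain ⟨k, -, x, -, y, -, h2, h4, h5, h6, h7, h9⟩ := exists_three (S := Finset.univ) (T := {a, b})
    (by have := Finset.card_le_two (a := a) (b := b); simp; omega)
  simp only [Finset.mem_insert, Finset.mem_singleton, not_or] at h2 h4 h5
  obtain ⟨s, h10, h11⟩ := h.exists_lift odd3 (c3_cube hab h2.1 h2.2)
  have h12 := hC (π s) (fun i => ρ s (e i) - e (π s i)) (a := x) (b := y) (fun i m => by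
    have := sub_mem (fx_map (T' := {π s i, π s m}ᶜ) (hD i m) s fun z hz => by
      simpa [Equiv.symm_apply_eq] using hz) (hD (π s i) (π s m))
    rw [map_sub] at this
    convert this using 1
    abel) h9.symm (by
      have := hD x y s h11 (Alt_mono (Δ := {a, b, k}) (by
        clear * - h4 h5 h6 h7; grind [Finset.mem_compl])
        (h10 ▸ c3_mem_Alt (by simp) (by simp) (by simp) hab h2.1))
      rw [map_sub] at this
      simp only [h10, c3_apply_of_ne h4.1 h4.2 h6.symm, c3_apply_of_ne h5.1 h5.2 h7]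
      exact sub_eq_sub_iff_sub_eq_sub.1 this)
  have h13 : ∑ i, c i • (e (π s i) - e i) = 0 := by
    have := Finset.sum_congr rfl fun i (_ : i ∈ Finset.univ) => congrArg (c i • ·) (h12 i)
    rw [← Finset.sum_smul, hc.2, zero_smul] at this
    simp only [smul_sub, Finset.sum_sub_distrib, ← map_smul, ← map_sum, hc.1] at this ⊢
    simpa using this
  rw [← Finset.sum_subset (Finset.subset_univ {a, b, k}) fun i _ hi => by
      simp only [Finset.mem_insert, Finset.mem_singleton, not_or] at hi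
      simp [h10, c3_apply_of_ne hi.1 hi.2.1 hi.2.2],
    Finset.sum_insert (by simp [hab, Ne.symm h2.1]), Finset.sum_pair (Ne.symm h2.2), h10,
    c3_first hab h2.2, c3_second, c3_third h2.1 h2.2] at h13
  have h14 : (c a - c k) • (e b - e a) = (c b - c k) • (e b - e k) := by
    linear_combination (norm := module) h13
  have h15 := hB (Submodule.smul_mem _ (c a - c k) (hD b a))
    (h14 ▸ Submodule.smul_mem _ _ (hD b k)) (Ne.symm h2.1)
  have h16 := (smul_eq_zero.1 h15).resolve_right (hN hab.symm)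
  have h17 := (smul_eq_zero.1 (h14 ▸ h15)).resolve_right (hN (Ne.symm h2.2))
  exact h1 (by linear_combination h17 - h16)

end Cfsg.Agent.H67
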