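import Mathlib
import Cfsg.Agent.H67.AltStar
import Cfsg.Agent.H67.Wt

/-! The minimal degree of a projective representation of an alternating group. -/

set_option autoImplicit false

namespace Cfsg.Agent.H67

open Equiv Equiv.Perm H3 Module

universe u v

section
variable {α : Type} [DecidableEq α] [Fintype α] {G : Type*} [Group G] {π : G →* Perm α}
  {K V : Type*} [Field K] [AddCommGroup V] [Module K V] {ρ : G →* End K V}

theorem rho_inj (ρ : G →* End K V) (g : G) : Function.Injective (ρ g) :=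
  ((End.isUnit_iff _).1 ((Group.isUnit g).map ρ)).1

theorem rho_conj {g x y : G} (h : g * x * g⁻¹ = y) (v : V) : ρ x (ρ g⁻¹ v) = ρ g⁻¹ (ρ y v) := by
  simp [← h, ← End.mul_apply, ← map_mul, ← mul_assoc]

theorem Cov.exists_cycle (h : Cov π) {l : ℕ} (hl : l.Prime) (hl2 : Odd l) (h1 : l ≤ Fintype.card α) :
    ∃ a, (π a).IsCycle ∧ (π a).support.card = l ∧ a ^ l = 1 := by
  obtain ⟨σ, h2⟩ := (exists_with_cycleType_iff α (m := {l})).2 ⟨by simpa, by simpa using hl.two_le⟩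
  obtain ⟨a, rfl, h3⟩ := h.exists_lift hl2 (σ := σ) (by
    rw [← orderOf_dvd_iff_pow_eq_one, ← lcm_cycleType, h2]; simp)
  exact ⟨a, card_cycleType_eq_one.1 (by simp [h2]), by rw [← sum_cycleType, h2]; simp, h3⟩

theorem Cov.exists_noncomm (h : Cov π) {S : Finset α} (hS : 4 ≤ S.card) : ∃ s t, s ^ 3 = 1 ∧
    t ^ 3 = 1 ∧ π s ∈ Alt S ∧ π t ∈ Alt S ∧ π ((t * s)⁻¹ * (s * t)) ≠ 1 := by
  obtain ⟨a, ha, b, hb, -, -, h1⟩ := exists_two (S := S) (T := ∅) (by simp; omega)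
  obtain ⟨c, hc, d, hd, h2, h3, h4⟩ := exists_two (S := S) (T := {a, b}) (by rwa [Finset.card_pair h1])
  simp only [Finset.mem_insert, Finset.mem_singleton, not_or] at h2 h3
  obtain ⟨s, h5, h6⟩ := h.exists_lift odd3 (c3_cube h1 h2.1 h2.2)
  obtain ⟨t, h7, h8⟩ := h.exists_lift odd3 (c3_cube h1 h3.1 h3.2)
  refine ⟨s, t, h6, h8, h5 ▸ c3_mem_Alt ha hb hc h1 h2.1, h7 ▸ c3_mem_Alt ha hb hd h1 h3.1,
    fun h9 => h4 ?_⟩
  rw [map_mul, map_inv, inv_mul_eq_one] at h9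
  have := congrArg (· b) h9
  simp only [map_mul, h5, h7, Perm.mul_apply, c3_second] at this
  rwa [c3_apply_of_ne h2.1 h2.2 h4, c3_apply_of_ne h3.1 h3.2 (Ne.symm h4)] at this

variable (ρ) in
/-- a weight of a pair of elements -/
def Wt {l : ℕ} (x y : G) (ψ : AddChar (ZMod l) K) (u : ZMod l × ZMod l) : Prop :=
  ∃ v ≠ 0, ρ x v = ψ u.1 • v ∧ ρ y v = ψ u.2 • v

/-- a linear map of the plane -/
def mv {l : ℕ} (a b c d : ℕ) (u : ZMod l × ZMod l) : ZMod l × ZMod l :=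
  (a • u.1 + b • u.2, c • u.1 + d • u.2)

theorem reach3 : ∀ k : ZMod 3, ∀ u ∈ ({0}ᶜ : Finset (ZMod 3 × ZMod 3)), ∃ a b c : Fin 3,
    (mv 1 0 1 1)^[a] ((mv 1 1 0 1)^[b] ((mv 1 0 1 1)^[c] (1, k))) = u := by decide +kernel

theorem reach5 : ∀ k : ZMod 5, k ≠ 0 → ∀ u ∈ ({0}ᶜ ×ˢ {0}ᶜ : Finset (ZMod 5 × ZMod 5)),
    ∃ a b c : Fin 4, (mv 2 0 0 2)^[a] ((mv 4 0 0 1)^[b] ((mv 0 1 2 0)^[c] (1, k))) = u := by
  decide +kernel

theorem Cov.move (h : Cov π) {β : Type} [DecidableEq β] [Fintype β] {p : α → Prop} [DecidablePred p]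
    (e : β ≃ Subtype p) {l : ℕ} (hl : Odd l) {x y : G} {x₀ y₀ : Perm β}
    (hx : π x = extendDomainHom e x₀) (hy : π y = extendDomainHom e y₀) (hx' : x ^ l = 1)
    (hy' : y ^ l = 1) (hc : Commute x y) (ψ : AddChar (ZMod l) K) (σ : Perm β) (a b c d : ℕ)
    (hσ : sign σ = 1 ∧ σ * x₀ * σ⁻¹ = x₀ ^ a * y₀ ^ b ∧ σ * y₀ * σ⁻¹ = x₀ ^ c * y₀ ^ d)
    (u : ZMod l × ZMod l) (hu : Wt ρ x y ψ u) (n : ℕ) : Wt ρ x y ψ ((mv a b c d)^[n] u) := by
  refine Function.Iterate.rec _ hu (fun u hu => ?_) n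
  obtain ⟨g, hg⟩ := h.surj (extendDomainHom e σ) ((sign_extendDomain σ e).trans hσ.1)
  obtain ⟨v, h0, h1, h2⟩ := hu
  have key : ∀ {z : G} {z₀ : Perm β} {i j : ℕ}, π z = extendDomainHom e z₀ → z ^ l = 1 →
      σ * z₀ * σ⁻¹ = x₀ ^ i * y₀ ^ j → ρ z (ρ g⁻¹ v) = ψ (i • u.1 + j • u.2) • ρ g⁻¹ v :=
    fun {z z₀ i j} h3 h4 h5 => by
      rw [rho_conj (h.uniq hl (y := x ^ i * y ^ j) (by rw [conj_pow, h4]; simp) (by
        rw [(hc.pow_pow i j).mul_pow, pow_right_comm, hx', pow_right_comm, hy']; simp) (by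
        simp only [map_mul, map_inv, map_pow, hg, h3, hx, hy]
        simp only [← map_mul, ← map_inv, ← map_pow, h5])), map_mul, map_pow, map_pow,
        End.mul_apply, End.HasEigenvector.pow_apply ⟨End.mem_eigenspace_iff.2 h2, h0⟩, map_smul,
        End.HasEigenvector.pow_apply ⟨End.mem_eigenspace_iff.2 h1, h0⟩, smul_smul, map_smul,
        AddChar.map_add_eq_mul, AddChar.map_nsmul_eq_pow, AddChar.map_nsmul_eq_pow, mul_comm]
  exact ⟨_, (map_ne_zero_iff _ (rho_inj ρ g⁻¹)).2 h0, key hx hx' hσ.2.1, key hy hy' hσ.2.2⟩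

variable [FiniteDimensional K V]

theorem Cov.eig (h : Cov π) {l : ℕ} (hl : l.Prime) (hl2 : Odd l) {a : G} (ha : (π a).IsCycle)
    (hs : (π a).support.card = l) (ha1 : a ^ l = 1) (hr : l + 2 ≤ Fintype.card α) {c : K}
    (hc : c ≠ 1) (hc1 : c ^ l = 1) : (l - 1) * finrank K ((ρ a).eigenspace c) ≤ finrank K V := by
  haveI := Fact.mk hl
  refine le_trans ?_ (sum_finrank_wsp_le (fun _ : Unit => ρ a)
    (χ := fun (i : Fin (l - 1)) _ => c ^ (i.1 + 1)) fun i j hij => Fin.ext (add_right_cancel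
      (pow_injOn_Iio_orderOf (x := c) ?_ ?_ (congrFun hij ()))))
  rotate_left
  · simp [orderOf_eq_prime hc1 hc, Nat.add_lt_of_lt_sub i.2]
  · simp [orderOf_eq_prime hc1 hc, Nat.add_lt_of_lt_sub j.2]
  refine le_trans (by simp) (Finset.card_nsmul_le_sum _ _ (finrank K ((ρ a).eigenspace c))
    fun i _ => ?_)
  have h1 : (i.1 + 1).Coprime (orderOf (π a)) := by
    rw [ha.orderOf, hs]
    exact (Nat.coprime_of_lt_prime (by omega) (Nat.add_lt_of_lt_sub i.2) hl).symm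
  obtain ⟨g, hg⟩ := h.exists_conj (y := a ^ (i.1 + 1)) hl2 ha1 (by rw [pow_right_comm, ha1, one_pow])
    (by rw [map_pow]; exact ha.isConj (ha.pow_iff.2 h1) (by rw [support_pow_coprime h1])) (by omega)
  rw [(Submodule.equivMapOfInjective _ (rho_inj ρ g⁻¹) _).finrank_eq]
  refine Submodule.finrank_mono (Submodule.map_le_iff_le_comap.2 fun v hv => mem_wsp.2 fun _ => ?_)
  by_cases h0 : v = 0
  · simp [h0]
  rw [rho_conj hg, map_pow, End.HasEigenvector.pow_apply ⟨hv, h0⟩, map_smul]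

theorem card_le_of_Wt {l : ℕ} {x y : G} {ψ : AddChar (ZMod l) K} (hψ : Function.Injective ψ)
    (T : Finset (ZMod l × ZMod l)) (h : ∀ u ∈ T, Wt ρ x y ψ u) : T.card ≤ finrank K V := by
  rw [← Nat.card_eq_finsetCard]
  refine card_le_of_wsp ![ρ x, ρ y] (χ := fun u : T => ![ψ u.1.1, ψ u.1.2]) (fun u w h1 =>
    Subtype.ext (Prod.ext (hψ (congrFun h1 0)) (hψ (congrFun h1 1)))) fun u => ?_
  simpa [Fin.forall_fin_two, Wt] using h u.1 u.2

variable [IsAlgClosed K]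

theorem exists_Wt {l : ℕ} [hl : Fact l.Prime] (hl0 : (l : K) ≠ 0) {x y : G} (hx : x ^ l = 1)
    (hy : y ^ l = 1) (hc : Commute x y) {f : End K V} (hf : f = 1 ∨ f = ρ y - 1)
    (h : f * (ρ x - 1) ≠ 0) : ∃ ψ : AddChar (ZMod l) K, Function.Injective ψ ∧
      ∃ k, Wt ρ x y ψ (1, k) ∧ (f = 1 ∨ k ≠ 0) := by
  obtain ⟨c, v, h1, h2, h3, h4⟩ := exists_eig_of_mul_ne hl0 (by rw [← map_pow, hx, map_one]) h
  have h5 : IsPrimitiveRoot c l := by simpa [orderOf_eq_prime h2 h1] using IsPrimitiveRoot.orderOf c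
  have h6 : ∀ w ∈ (ρ x).eigenspace c, ρ y w ∈ (ρ x).eigenspace c :=
    End.mapsTo_genEigenspace_of_comm (hc.map ρ) c 1
  obtain ⟨d, w, h7, h8, h9, h10⟩ : ∃ (d : K) (w : V), w ≠ 0 ∧ ρ x w = c • w ∧ ρ y w = d • w ∧
      (f = 1 ∨ d ≠ 1) := by
    rcases hf with rfl | rfl
    · obtain ⟨d, w, h7, h8, h9⟩ := exists_eigvec_mem ((Submodule.ne_bot_iff _).2
        ⟨v, End.mem_eigenspace_iff.2 h3, h4⟩) h6
      exact ⟨d, w, h8, End.mem_eigenspace_iff.1 h7, h9, .inl rfl⟩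
    · obtain ⟨d, w, h7, -, h8, h9⟩ := exists_eig_of_mul_ne (f := (ρ y).restrict h6) (g := 1) hl0
        (by rw [End.pow_restrict _ h6]; ext; simp [← map_pow, hy]) fun h7 => h4 (by
          simpa using congrArg (fun g => (g ⟨v, End.mem_eigenspace_iff.2 h3⟩).1) h7)
      exact ⟨d, w, fun h => h9 (Subtype.ext h), End.mem_eigenspace_iff.1 w.2,
        congrArg Subtype.val h8, .inr h7⟩
  obtain ⟨k, h11, rfl⟩ := h5.eq_pow_of_pow_eq_one (ξ := d) (smul_left_injective K h7 (by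
    simpa [← map_pow, hy] using (End.HasEigenvector.pow_apply ⟨End.mem_eigenspace_iff.2 h9, h7⟩ l).symm))
  refine ⟨AddChar.zmodChar l h2, fun i j hij => ZMod.val_injective l
    (h5.pow_inj i.val_lt j.val_lt hij), k, ⟨w, h7, ?_, ?_⟩, h10.imp_right fun h12 h13 => h12 ?_⟩
  · simpa [AddChar.zmodChar_apply, ZMod.val_one] using h8
  · simpa [AddChar.zmodChar_apply'] using h9
  · rw [← AddChar.zmodChar_apply' h2, h13, AddChar.map_zero_eq_one]

theorem Cov.orb3 (h : Cov π) (h9 : 9 ≤ Fintype.card α) (hn : NT π ρ) (h3 : (3 : K) ≠ 0) :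
    8 ≤ finrank K V := by
  classical
  haveI := Fact.mk Nat.prime_three
  obtain ⟨ι⟩ := Function.Embedding.nonempty_of_card_le (α := Fin 9) (β := α) (by simpa)
  let e := ι.toEquivRange
  let x₀ : Perm (Fin 9) := c[0, 1, 2] * c[3, 4, 5] * c[6, 7, 8]
  let y₀ : Perm (Fin 9) := c[0, 3, 6] * c[1, 4, 7] * c[2, 5, 8]
  obtain ⟨x, hx, hx'⟩ := h.exists_lift odd3 (σ := extendDomainHom e x₀)
    (by rw [← map_pow, show x₀ ^ 3 = 1 by decide +kernel, map_one])
  obtain ⟨y, hy, hy'⟩ := h.exists_lift odd3 (σ := extendDomainHom e y₀)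
    (by rw [← map_pow, show y₀ ^ 3 = 1 by decide +kernel, map_one])
  have hc := h.comm odd3 hy' (g := x) (by
    rw [hx, hy]; exact Commute.map (show x₀ * y₀ = y₀ * x₀ by decide +kernel) _)
  obtain ⟨ψ, h1, k, h2, -⟩ := exists_Wt (ρ := ρ) h3 hx' hy' hc (.inl rfl) fun h1 => by
    rw [one_mul, sub_eq_zero] at h1
    exact absurd ((map_eq_one_iff _ (extendDomainHom_injective e)).1 (hx ▸ hn x h1)) (by decide +kernel)
  have m1 := h.move (ρ := ρ) e odd3 hx hy hx' hy' hc ψ (c[3, 4, 5] * c[6, 8, 7]) 1 0 1 1 (by decide +kernel)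
  have m2 := h.move (ρ := ρ) e odd3 hx hy hx' hy' hc ψ (c[1, 4, 7] * c[2, 8, 5]) 1 1 0 1 (by decide +kernel)
  refine card_le_of_Wt (ρ := ρ) (x := x) (y := y) h1 {0}ᶜ fun u hu => ?_
  obtain ⟨a, b, c, rfl⟩ := reach3 k u hu
  exact m1 _ (m2 _ (m1 _ h2 _) _) _

theorem Cov.orb5 (h : Cov π) (h10 : 10 ≤ Fintype.card α) (hs : ¬ Star π ρ) (h5 : (5 : K) ≠ 0) :
    16 ≤ finrank K V := by
  classical
  haveI := Fact.mk Nat.prime_five
  have o5 : Odd 5 := by decide
  obtain ⟨ι⟩ := Function.Embedding.nonempty_of_card_le (α := Fin 10) (β := α) (by simpa)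
  let e := ι.toEquivRange
  let x₀ : Perm (Fin 10) := c[0, 1, 2, 3, 4]
  let y₀ : Perm (Fin 10) := c[5, 6, 7, 8, 9]
  obtain ⟨x, hx, hx'⟩ := h.exists_lift o5 (σ := extendDomainHom e x₀)
    (by rw [← map_pow, show x₀ ^ 5 = 1 by decide +kernel, map_one])
  obtain ⟨y, hy, hy'⟩ := h.exists_lift o5 (σ := extendDomainHom e y₀)
    (by rw [← map_pow, show y₀ ^ 5 = 1 by decide +kernel, map_one])
  have hd : Perm.Disjoint (π x) (π y) := by
    rw [hx, hy]; exact Perm.Disjoint.extendDomain e (by unfold Perm.Disjoint; decide +kernel)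
  have hc := h.comm o5 hy' hd.commute
  obtain ⟨ψ, h1, k, h2, h3⟩ := exists_Wt (ρ := ρ) h5 hx' hy' hc (.inr rfl) fun h1 =>
    hs (h.star_of (by omega) (S := (π y).support) (x := y) (y := x) (by
        rw [hy, extendDomainHom_apply, card_support_extend_domain]; decide +kernel)
      (mem_Alt_support (h.even y)) (fun h2 => absurd ((map_eq_one_iff _
        (extendDomainHom_injective e)).1 (hy ▸ h2)) (by decide +kernel))
      (mem_Alt_compl (h.even x) hd) (fun h2 => absurd ((map_eq_one_iff _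
        (extendDomainHom_injective e)).1 (hx ▸ h2)) (by decide +kernel))
      (fun g hg => h.comm o5 hx' (commute_of_Alt hg (mem_Alt_compl (h.even x) hd)))
      (by rwa [sub_mul, one_mul, sub_eq_zero] at h1))
  have h4 : k ≠ 0 := h3.elim (fun h3 h4 => by
    obtain ⟨v, h6, -, h7⟩ := h2
    simpa [h4, h7, h6.symm] using LinearMap.congr_fun h3 v) id
  have m1 := h.move (ρ := ρ) e o5 hx hy hx' hy' hc ψ (c[1, 2, 4, 3] * c[6, 7, 9, 8]) 2 0 0 2
    (by decide +kernel)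
  have m2 := h.move (ρ := ρ) e o5 hx hy hx' hy' hc ψ (c[1, 4] * c[2, 3]) 4 0 0 1 (by decide +kernel)
  have m3 := h.move (ρ := ρ) e o5 hx hy hx' hy' hc ψ (c[0, 5] * c[1, 6, 2, 7, 4, 9, 3, 8]) 0 1 2 0
    (by decide +kernel)
  refine card_le_of_Wt (ρ := ρ) (x := x) (y := y) h1 ({0}ᶜ ×ˢ {0}ᶜ) fun u hu => ?_
  obtain ⟨a, b, c, rfl⟩ := reach5 k h4 u hu
  exact m1 _ (m2 _ (m3 _ h2 _) _) _

theorem Cov.a4 (h : Cov π) (hs : ¬ Star π ρ) {l : ℕ} (hl : l.Prime) (h5 : 5 ≤ l)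
    (hr : l + 4 ≤ Fintype.card α) (hl0 : (l : K) ≠ 0) : (l - 1) * 2 ≤ finrank K V := by
  have hl2 := hl.odd_of_ne_two (by omega)
  obtain ⟨a, h1, h2, h3⟩ := h.exists_cycle hl hl2 (by omega)
  obtain ⟨s, t, h4, h6, h7, h8, h9⟩ := h.exists_noncomm (S := (π a).supportᶜ)
    (by rw [Finset.card_compl]; omega)
  have h10 : ∀ g, π g ∈ Alt (π a).support → Commute g s ∧ Commute g t := fun g hg =>
    ⟨h.comm odd3 h4 (commute_of_Alt hg h7), h.comm odd3 h6 (commute_of_Alt hg h8)⟩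
  have h11 : ∀ g, π g ∈ Alt (π a).support → Commute g ((t * s)⁻¹ * (s * t)) := fun g hg =>
    ((h10 g hg).2.mul_right (h10 g hg).1).inv_right.mul_right ((h10 g hg).1.mul_right (h10 g hg).2)
  have h12 := mem_Alt_support (h.even a)
  obtain ⟨c, v, h13, h14, h15, h16⟩ := exists_eig_of_mul_ne (f := ρ a)
    (g := ρ ((t * s)⁻¹ * (s * t)) - 1) hl0 (by rw [← map_pow, h3, map_one]) fun h13 =>
    hs (h.star_of (by omega) (by omega) h12 h1.ne_one (by
      simpa only [map_mul, map_inv] using mul_mem (inv_mem (mul_mem h8 h7)) (mul_mem h7 h8)) h9 h11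
      (kl_symm (h11 a h12).symm (by rwa [sub_mul, one_mul, sub_eq_zero] at h13)))
  refine le_trans (Nat.mul_le_mul_left _ ?_) (h.eig (ρ := ρ) hl hl2 h1 h2 h3 (by omega) h13 h14)
  by_contra h17
  have h18 : ∀ g, Commute a g → ∃ d : K, d • v = ρ g v := fun g hg => by
    have h18 : v ∈ (ρ a).eigenspace c := End.mem_eigenspace_iff.2 h15
    have h19 : (⟨v, h18⟩ : (ρ a).eigenspace c) ≠ 0 := fun h => h16 (by simp [show v = 0 by simpa using h])
    obtain ⟨d, hd⟩ := exists_smul_eq_of_finrank_eq_one (K := K) (le_antisymm (by omega)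
      (finrank_pos_iff_exists_ne_zero.2 ⟨_, h19⟩)) h19
      ⟨_, End.mapsTo_genEigenspace_of_comm (hg.map ρ) c 1 h18⟩
    exact ⟨d, congrArg Subtype.val hd⟩
  obtain ⟨d, hd⟩ := h18 s (h10 a h12).1
  obtain ⟨d', hd'⟩ := h18 t (h10 a h12).2
  have h19 : ρ (s * t) v = ρ (t * s) v := by
    simp only [map_mul, End.mul_apply, ← hd, ← hd', map_smul, smul_comm d]
  exact h16 (by simp only [LinearMap.sub_apply, map_mul _ _⁻¹, End.mul_apply, h19]
                simp [← End.mul_apply, ← map_mul])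

theorem Cov.ind (h : Cov π) (hs : ¬ Star π ρ) {l : ℕ} (hl : l.Prime) (hl2 : Odd l)
    (hr : l + 5 ≤ Fintype.card α) (hl0 : (l : K) ≠ 0) : ∃ (S : Finset α)
      (π' : (Alt S).comap π →* Perm S) (W : Submodule K V) (ρ' : (Alt S).comap π →* End K W),
      Fintype.card S + l = Fintype.card α ∧ Cov π' ∧ NT π' ρ' ∧
        (l - 1) * finrank K W ≤ finrank K V := by
  obtain ⟨a, h1, h2, h3⟩ := h.exists_cycle hl hl2 (by omega)
  have h4 : (π a).supportᶜ.card + l = Fintype.card α := by rw [Finset.card_compl]; omega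
  have h5 := hl.two_le
  obtain ⟨k, rfl⟩ := id hl2
  obtain ⟨σ, h6, h7⟩ := exists_c3 (S := (π a).supportᶜ) (by omega)
  obtain ⟨y, rfl, h8⟩ := h.exists_lift odd3 (h7.orderOf ▸ pow_orderOf_eq_one σ)
  have h9 : ∀ g, π g ∈ Alt (π a).supportᶜ → Commute g a := fun g hg =>
    h.comm hl2 h3 (commute_of_Alt (mem_Alt_support (h.even a)) hg).symm
  obtain ⟨c, v, h13, h14, h15, h16⟩ := exists_eig_of_mul_ne (f := ρ a) (g := ρ y - 1) hl0
    (by rw [← map_pow, h3, map_one]) fun h13 => hs (h.star_of (by omega) (by omega) h6 h7.ne_one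
      (by simpa using mem_Alt_support (h.even a)) h1.ne_one h9
      (by rwa [sub_mul, one_mul, sub_eq_zero] at h13))
  obtain ⟨π', h10, h11⟩ := h.restrict (π a).supportᶜ
  let ρ' := Representation.subrepresentation (ρ.comp ((Alt (π a).supportᶜ).comap π).subtype)
    ((ρ a).eigenspace c) fun g => End.mapsTo_genEigenspace_of_comm ((h9 g g.2).symm.map ρ) c 1
  refine ⟨_, π', _, ρ', by rwa [Fintype.card_coe], h10, fun g hg => by_contra fun h12 => h16 ?_,
    h.eig hl hl2 h1 h2 h3 (by omega) h13 h14⟩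
  have : ρ' ⟨y, h6⟩ = 1 := h10.mem_of_normal (N := MonoidHom.ker ρ') (by rw [Fintype.card_coe]; omega) hg h12 odd3
    (Subtype.ext h8)
  exact sub_eq_zero.2 (congrArg (fun f => (f ⟨v, End.mem_eigenspace_iff.2 h15⟩).1) this)

end

theorem Cov.bound {K : Type*} [Field K] [IsAlgClosed K] (n : ℕ) : ∀ {α : Type} [DecidableEq α]
    [Fintype α] {G : Type u} [Group G] {π : G →* Perm α}, Fintype.card α = n → 9 ≤ n → Cov π →
    ∀ (d : ℕ) {V : Type v} [AddCommGroup V] [Module K V] [FiniteDimensional K V] {ρ : G →* End K V},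
      finrank K V = d → NT π ρ → n ≤ d + 2 ∧ (n = d + 2 → (n : K) = 0) := by
  induction n using Nat.strong_induction_on with | _ n ih => ?_
  intro α _ _ G _ π hα h9 h d
  induction d using Nat.strong_induction_on with | _ d ih' => ?_
  intro V _ _ _ ρ hd hn
  by_cases h0 : fx π ρ Finset.univ = ⊥
  swap
  · let ρ' := Representation.quotient ρ (fx π ρ Finset.univ) fun g v hv => fx_map hv g (by simp)
    have h1 := (fx π ρ Finset.univ).finrank_quotient_add_finrank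
    have h2 := Submodule.one_le_finrank_iff.2 h0
    have := (ih' _ (by omega) (ρ := ρ') rfl fun g hg => by_contra fun h3 => by
      obtain ⟨s, t, h4, h5, h6, h7, h8⟩ := h.exists_noncomm (S := Finset.univ) (by simp; omega)
      have h10 : ∀ y, y ^ 3 = 1 → ∀ v, ρ y v - v ∈ fx π ρ Finset.univ := fun y hy v =>
        (Submodule.Quotient.eq _).1 (LinearMap.congr_fun
          (h.mem_of_normal (N := MonoidHom.ker ρ') (by omega) hg h3 odd3 hy) (Submodule.Quotient.mk v))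
      refine h8 (hn _ ?_)
      rw [map_mul, map_mul _ s, comm_of_unip (h10 s h4) (h10 t h5) (fun u hu => hu s h4 h6)
        fun u hu => hu t h5 h7, ← map_mul, ← map_mul, inv_mul_cancel, map_one]).1
    omega
  subst hα hd
  by_cases hs : Star π ρ
  · exact h.star_bound (by omega) hs hn h0
  have key : ∀ l : ℕ, l.Prime → Odd l → l + 9 ≤ Fintype.card α → (l : K) ≠ 0 →
      (l - 1) * (Fintype.card α - l - 2) ≤ finrank K V := fun l h1 h2 h3 h4 => by
    obtain ⟨S, π', W, ρ', h5, h6, h7, h8⟩ := h.ind hs h1 h2 (by omega) h4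
    have := h1.pos
    exact le_trans (Nat.mul_le_mul_left _ (by
      have := (ih _ (by omega) rfl (by omega) h6 _ rfl h7).1; omega)) h8
  have k3 := key 3 Nat.prime_three odd3
  have k5 := key 5 Nat.prime_five (by decide)
  have o3 := h.orb3 h9 hn
  have o5 := fun h1 => h.orb5 h1 hs
  have a5 := h.a4 hs Nat.prime_five le_rfl
  have a7 := h.a4 hs (l := 7) (by norm_num) (by norm_num)
  simp only [Nat.cast_ofNat] at k3 k5 a5 a7
  by_cases h5 : (5 : K) = 0
  · have h3 : (3 : K) ≠ 0 := fun h3 => one_ne_zero (α := K) (by linear_combination 2 * h3 - h5)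
    have h7 : (7 : K) ≠ 0 := fun h7 => one_ne_zero (α := K) (by linear_combination 3 * h5 - 2 * h7)
    simp only [h3, h7, ne_eq, not_false_eq_true, forall_const] at k3 o3 a7
    refine ⟨by omega, fun h1 => ?_⟩
    rw [show Fintype.card α = 10 by omega, Nat.cast_ofNat]
    linear_combination 2 * h5
  by_cases h3 : (3 : K) = 0 <;>
    simp only [h3, h5, ne_eq, not_false_eq_true, forall_const] at k3 k5 o3 o5 a5 <;> omega

theorem Cen.bound {K : Type*} [Field K] [IsAlgClosed K] {α : Type} [DecidableEq α]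
    [Fintype α] {G : Type*} [Group G] {π : G →* Perm α} (h : Cen π) (h9 : 9 ≤ Fintype.card α)
    {V : Type*} [AddCommGroup V] [Module K V] [FiniteDimensional K V] {ρ : G →* End K V}
    (hn : NT π ρ) : Fintype.card α ≤ finrank K V + 2 ∧
      (Fintype.card α = finrank K V + 2 → (Fintype.card α : K) = 0) := by
  obtain ⟨L, hL⟩ := h.exists_cov (by omega)
  exact Cov.bound _ rfl h9 hL _ (ρ := ρ.comp L.subtype) rfl fun g => hn g

end Cfsg.Agent.H67
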