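import Mathlib
import Cfsg.Agent.H67.Wt

/-! The Feit-Tits reduction for irreducible linear groups with a solvable normal subgroup. -/

set_option autoImplicit false

namespace Cfsg.Agent.H67

open Module Subgroup

variable {H : Type*} [Group H] {K V : Type*} [Field K] [AddCommGroup V] [Module K V]
  {ρ : H →* End K V}

variable (ρ) in
/-- irreducibility -/
def Irr : Prop := ∀ U : Submodule K V, (∀ g, U ≤ U.comap (ρ g)) → U = ⊥ ∨ U = ⊤

theorem exists_ext {F : Type*} [Field F] (f : F →+* K) (n : ℕ) :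
    ∃ ψ : Matrix (Fin n) (Fin n) F →* End K (Fin n → K), Function.Injective ψ :=
  ⟨(Matrix.toLinAlgEquiv' (R := K)).toRingEquiv.toMonoidHom.comp f.mapMatrix.toMonoidHom,
    (Matrix.toLinAlgEquiv' (R := K)).injective.comp (Matrix.map_injective f.injective)⟩

theorem exists_aut_rep {Q : Type*} [CommGroup Q] [Finite Q] {l : ℕ} [Fact l.Prime]
    (h : ∀ q : Q, q ^ l = 1) : ∃ (m : ℕ) (τ : MulAut Q →* Matrix (Fin m) (Fin m) (ZMod l)),
      Function.Injective τ ∧ Nat.card Q = l ^ m := by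
  obtain ⟨_⟩ : Nonempty (Module (ZMod l) (Additive Q)) := ⟨AddCommGroup.zmodModule h⟩
  let τ : MulAut Q →* End (ZMod l) (Additive Q) :=
    { toFun := fun s => (MonoidHom.toAdditive s.toMonoidHom).toZModLinearMap l
      map_one' := rfl
      map_mul' := fun _ _ => rfl }
  let b := LinearMap.toMatrixAlgEquiv (finBasis (ZMod l) (Additive Q))
  exact ⟨_, b.toRingEquiv.toMonoidHom.comp τ, b.injective.comp fun s t hs =>
    MulEquiv.ext fun q => LinearMap.congr_fun hs q,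
    (natCard_eq_pow_finrank (K := ZMod l) (V := Additive Q)).trans (by simp)⟩

theorem nontriv_sub_or_quot [Group.IsPerfect H] (h : ∃ g, ρ g ≠ 1) {U : Submodule K V}
    (hU : ∀ g, U ≤ U.comap (ρ g)) : (∃ g, Representation.subrepresentation ρ U hU g ≠ 1) ∨
      ∃ g, Representation.quotient ρ U hU g ≠ 1 := by
  by_contra! h1
  obtain ⟨g, hg⟩ := h
  have h2 : ∀ g v, ρ g v - v ∈ U := fun g v =>
    (Submodule.Quotient.eq _).1 (LinearMap.congr_fun (h1.2 g) (Submodule.Quotient.mk v))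
  have h3 : ∀ g, ∀ u ∈ U, ρ g u = u := fun g u hu =>
    congrArg Subtype.val (LinearMap.congr_fun (h1.1 g) ⟨u, hu⟩)
  refine hg (commutator_le.2 (fun a _ b _ => ?_) Group.IsPerfect.mem_commutator : g ∈ ρ.ker)
  rw [MonoidHom.mem_ker, commutatorElement_def, mul_assoc, ← mul_inv_rev, map_mul, map_mul,
    comm_of_unip (h2 a) (h2 b) (h3 a) (h3 b), ← map_mul, ← map_mul, mul_inv_cancel, map_one]

variable [FiniteDimensional K V] [IsAlgClosed K]

theorem Irr.schur [Nontrivial V] (h : Irr ρ) {z : H} (hz : z ∈ center H) :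
    ∃ c : K, ρ z = c • 1 := by
  obtain ⟨c, hc⟩ := End.exists_eigenvalue (ρ z)
  refine ⟨c, LinearMap.ext fun v => End.mem_eigenspace_iff.1 (((h _ fun g =>
    End.mapsTo_genEigenspace_of_comm (Commute.map (hz.comm g) ρ) c 1).resolve_left hc).ge trivial)⟩

theorem Irr.index_le [Finite H] [Nontrivial V] (h : Irr ρ) (hi : Function.Injective ρ)
    {E : Subgroup H} [hE : E.Normal] (h1 : ¬ E ≤ center H) (h2 : ∀ a ∈ E, ∀ b ∈ E, Commute a b) :
    ∃ L : Subgroup H, L ≠ ⊤ ∧ L.index ≤ finrank K V := by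
  obtain ⟨v, hv, χ, hχ⟩ := exists_common_eigvec (f := fun e : E => ρ e)
    fun a b => (h2 _ a.2 _ b.2).map ρ
  letI : MulAction H E := MulAction.compHom E (MulAut.conjNormal : H →* MulAut E)
  letI : MulAction H (E → K) := arrowAction
  have h3 : ∀ (g : H) (ψ : E → K) (w : V), (∀ e : E, ρ e w = ψ e • w) →
      ∀ e : E, ρ e (ρ g w) = (g • ψ) e • ρ g w := fun g ψ w hw e => by
    rw [show (g • ψ) e = ψ (MulAut.conjNormal g⁻¹ e) from rfl, ← map_smul, ← hw]
    simp [← End.mul_apply, ← map_mul, ← mul_assoc]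
  refine ⟨MulAction.stabilizer H χ, fun h4 => h1 fun e he => mem_center_iff.2 fun g => hi ?_, ?_⟩
  · have h5 := (h (wsp (fun e : E => ρ e) χ) fun g w hw => mem_wsp.2 fun e => by
      rw [h3 g χ w (mem_wsp.1 hw), MulAction.mem_stabilizer_iff.1 (h4.ge trivial)]).resolve_left
      ((Submodule.ne_bot_iff _).2 ⟨v, mem_wsp.2 hχ, hv⟩)
    ext w
    simp [mem_wsp.1 (h5.ge trivial) ⟨e, he⟩]
  rw [MulAction.index_stabilizer, ← Nat.card_coe_set_eq]
  haveI := (Set.finite_range fun g : H => g • χ).to_subtype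
  refine card_le_of_wsp (ι := Set.range fun g : H => g • χ) (fun e : E => ρ e) Subtype.val_injective ?_
  rintro ⟨_, g, rfl⟩
  exact ⟨ρ g v, (map_ne_zero_iff _ ((End.isUnit_iff _).1 ((Group.isUnit g).map ρ)).1).2 hv,
    h3 g χ v hχ⟩

theorem Irr.card_le_sq [Finite H] [Nontrivial V] (h : Irr ρ) (hi : Function.Injective ρ)
    {E : Subgroup H} (h1 : ⁅E, E⁆ ≤ center H)
    (h2 : ∀ a ∈ E, (∀ b ∈ E, Commute a b) → a ∈ center H) :
    Nat.card (E.map (QuotientGroup.mk' (center H))) ≤ finrank K V ^ 2 := by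
  choose e he he' using fun q : E.map (QuotientGroup.mk' (center H)) => q.2
  choose χ hχ using fun q (f : E) => h.schur (h1 (commutator_mem_commutator f.2 (he q)))
  rw [sq, ← finrank_linearMap K K V V]
  refine card_le_of_wsp (fun f : E => LinearMap.mulLeftRight K (ρ f, ρ f⁻¹)) (χ := χ)
    (fun q r hqr => Subtype.ext ?_) fun q => ⟨ρ (e q), ((Group.isUnit _).map ρ).ne_zero, fun f => ?_⟩
  · rw [← he', ← he', QuotientGroup.mk'_apply, QuotientGroup.mk'_apply, QuotientGroup.eq]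
    refine h2 _ (mul_mem (inv_mem (he q)) (he r)) fun b hb => ?_
    have := hi ((hχ q ⟨b⁻¹, inv_mem hb⟩).trans (hqr ▸ (hχ r ⟨b⁻¹, inv_mem hb⟩).symm))
    simp only [commutatorElement_def, mul_assoc, mul_right_inj, inv_inv] at this
    rw [Commute, SemiconjBy, mul_assoc, ← inv_mul_cancel_right (e r * b) (e r), mul_assoc (e r),
      ← this]
    group
  · rw [LinearMap.mulLeftRight_apply, ← one_mul (ρ (e q)), ← smul_mul_assoc, ← hχ, one_mul]
    simp [← map_mul, commutatorElement_def]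

theorem Irr.feit_tits [Finite H] [Group.IsPerfect H] [Nontrivial V] (h : Irr ρ)
    (hi : Function.Injective ρ) {N : Subgroup H} [hN : N.Normal] [Group.IsSolvable N]
    (h1 : ¬ N ≤ center H) : (∃ L : Subgroup H, L ≠ ⊤ ∧ L.index ≤ finrank K V) ∨
      ∃ (l : ℕ) (_ : Fact l.Prime) (m : ℕ) (σ : H →* Matrix (Fin m) (Fin m) (ZMod l)),
        (∃ g, σ g ≠ 1) ∧ σ.ker ≠ ⊥ ∧ l ^ m ≤ finrank K V ^ 2 := by
  obtain ⟨E, ⟨hE, h2, h3⟩, h4⟩ := exists_minimal_of_wellFoundedLT
    (fun E : Subgroup H => E.Normal ∧ E ≤ N ∧ ¬ E ≤ center H) ⟨N, hN, le_rfl, h1⟩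
  have h5 : ∀ D : Subgroup H, D.Normal → D ≤ E → D ≤ center H ∨ E ≤ D := fun D h5 h6 =>
    (em _).imp_right fun h7 => h4 ⟨h5, h6.trans h2, h7⟩ h6
  rcases (h5 (E ⊓ centralizer E) inferInstance inf_le_left).symm with h6 | h6
  · exact .inl (h.index_le hi h3 fun a ha b hb => ((h6 ha).2 b hb).symm)
  right
  haveI : Nontrivial E := (nontrivial_iff_ne_bot E).2 fun h7 => h3 (h7 ▸ bot_le)
  haveI : Group.IsSolvable E := Group.isSolvable_of_isSolvable_injective (inclusion_injective h2)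
  have h7 : ⁅E, E⁆ ≤ center H := (h5 _ inferInstance (commutator_le_left E E)).resolve_right
    fun h7 => (Group.IsSolvable.commutator_lt_top_of_nontrivial E).not_ge fun x _ => by
      obtain ⟨y, hy, h8⟩ := (map_subtype_commutator E).ge (h7 x.2)
      exact Subtype.ext h8 ▸ hy
  have h8 := h.card_le_sq hi h7 fun a ha hb => h6 ⟨ha, fun b hb' => (hb b hb').symm⟩
  set Q := E.map (QuotientGroup.mk' (center H)) with hQ
  haveI : Q.Normal := hE.map _ (QuotientGroup.mk'_surjective _)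
  have h9 : ∀ a ∈ Q, ∀ b ∈ Q, Commute a b := by
    rintro _ ⟨a, ha, rfl⟩ _ ⟨b, hb, rfl⟩
    rw [← commutatorElement_eq_one_iff_commute, ← map_commutatorElement]
    exact (QuotientGroup.eq_one_iff _).2 (h7 (commutator_mem_commutator ha hb))
  have h10 : Q ≠ ⊥ := fun h10 => h3 (by simpa using (map_eq_bot_iff E).1 h10)
  obtain ⟨l, hl, h11⟩ := Nat.exists_prime_and_dvd (mt card_eq_one.1 h10)
  haveI := Fact.mk hl
  obtain ⟨⟨_, x, hx, rfl⟩, h12⟩ := exists_prime_orderOf_dvd_card' l h11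
  let D : Subgroup H :=
    { carrier := {a | a ∈ E ∧ QuotientGroup.mk' (center H) a ^ l = 1}
      one_mem' := ⟨one_mem _, by simp⟩
      mul_mem' := fun {a b} ha hb => ⟨mul_mem ha.1 hb.1, by
        rw [map_mul, (h9 _ ⟨a, ha.1, rfl⟩ _ ⟨b, hb.1, rfl⟩).mul_pow, ha.2, hb.2, one_mul]⟩
      inv_mem' := fun {a} ha => ⟨inv_mem ha.1, by rw [map_inv, inv_pow, ha.2, inv_one]⟩ }
  have h13 := (h5 D ⟨fun a ha g => ⟨hE.conj_mem a ha.1 g, by
      rw [map_mul, map_mul, map_inv, conj_pow, ha.2, mul_one, mul_inv_cancel]⟩⟩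
    fun a ha => ha.1).resolve_left fun h13 => hl.one_lt.ne' (h12.symm.trans (orderOf_eq_one_iff.2
      (Subtype.ext ((QuotientGroup.eq_one_iff x).2 (h13 ⟨hx, congrArg Subtype.val
        (h12 ▸ pow_orderOf_eq_one (⟨_, x, hx, rfl⟩ : Q))⟩)))))
  obtain ⟨m, τ, h14, h15⟩ := @exists_aut_rep Q
    { mul_comm := fun a b => Subtype.ext (h9 _ a.2 _ b.2) } _ l _ (by
      rintro ⟨_, a, ha, rfl⟩
      exact Subtype.ext (h13 ha).2)
  refine ⟨l, this, m, τ.comp (MulAut.conjNormal.comp (QuotientGroup.mk' _)),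
    by_contra fun h16 => h10 (eq_bot_iff.2 ?_), fun h16 => h3 fun a ha => ?_, h15 ▸ h8⟩
  · rw [← Group.IsPerfect.center_quotient_center_eq_bot]
    intro q hq
    refine mem_center_iff.2 fun g => ?_
    obtain ⟨g, rfl⟩ := QuotientGroup.mk'_surjective _ g
    have := h14 ((not_not.1 (not_exists.1 h16 g)).trans (map_one τ).symm)
    exact mul_inv_eq_iff_eq_mul.1 (congrArg Subtype.val (MulEquiv.congr_fun this ⟨q, hq⟩))
  · rw [mem_bot.1 (h16.le (show a ∈ MonoidHom.ker _ from (congrArg τ (MulEquiv.ext fun q =>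
      Subtype.ext (mul_inv_eq_iff_eq_mul.2 (h9 _ ⟨a, ha, rfl⟩ _ q.2)))).trans (map_one τ)))]
    exact one_mem _

end Cfsg.Agent.H67
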