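import Mathlib
import Cfsg.Agent.H67.Inv2O
import Cfsg.Agent.H11.Orders

/-! Centraliser orders of involutions of `O⁺` in characteristic two. -/

set_option autoImplicit false

namespace Cfsg.Agent.H67

open Module QuadraticMap

/-- the order of `O⁺_2n(q)` -/
def oOrd (q : ℕ) : ℕ → ℕ
  | 0 => 1
  | n + 1 => (q ^ (n + 1) - 1) * (q ^ n + 1) * q ^ (2 * n) * oOrd q n

theorem oOrd_succ {q : ℕ} (hq : 0 < q) (n : ℕ) :
    oOrd q (n + 1) = 2 * q ^ n * (q ^ (n + 1) - 1) * spOrd q n := by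
  induction n with
  | zero => simp [oOrd, spOrd, mul_comm]
  | succ n ih =>
    rw [oOrd, ih, spOrd_succ]
    zify [Nat.one_le_pow _ q hq]
    ring

/-- the number of totally singular frames -/
def tsFr (q m k : ℕ) : ℕ := ∏ i ∈ Finset.range k, q ^ i * ((q ^ (m - i) - 1) * (q ^ (m - i - 1) + 1))

theorem tsFr_pos {q m k : ℕ} (hq : 1 < q) (h : k ≤ m) : 0 < tsFr q m k :=
  Finset.prod_pos fun i hi => Nat.mul_pos (pow_pos (by omega) _) (Nat.mul_pos (Nat.sub_pos_of_lt
    (Nat.one_lt_pow (by have := Finset.mem_range.1 hi; omega) hq)) (Nat.succ_pos _))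

theorem oOrd_add (q k n e : ℕ) (he : 2 * e + k = k * k + 4 * k * n) :
    oOrd q (k + n) = tsFr q (k + n) k * q ^ e * oOrd q n := by
  induction k generalizing n e with
  | zero => obtain rfl : e = 0 := by omega
            simp [tsFr]
  | succ k ih =>
    obtain ⟨e', he'⟩ : ∃ e', 2 * e' + k = k * k + 4 * k * (n + 1) :=
      ⟨k * (k - 1) / 2 + 2 * k * (n + 1), by
        have := Nat.two_mul_div_two_of_even (Nat.even_mul_pred_self k)
        rcases k with _ | k
        · simp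
        · rw [Nat.add_sub_cancel] at this ⊢
          linarith⟩
    rw [show k + 1 + n = k + (n + 1) by ring, ih _ _ he', tsFr, tsFr, Finset.prod_range_succ, oOrd,
      Nat.add_sub_cancel_left, Nat.add_sub_cancel]
    have : q ^ e' * q ^ (2 * n) = q ^ k * q ^ e := by
      rw [← pow_add, ← pow_add]
      congr 1
      nlinarith
    generalize q ^ (n + 1) - 1 = A
    linear_combination (∏ i ∈ Finset.range k, q ^ i * ((q ^ (k + (n + 1) - i) - 1) *
      (q ^ (k + (n + 1) - i - 1) + 1))) * A * (q ^ n + 1) * oOrd q n * this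

universe u
variable {F : Type u} [Field F] [Fintype F] {U : Type u} [AddCommGroup U] [Module F U]
  [FiniteDimensional F U]

omit [Fintype F] in
theorem qPlus_eq_qPlus (m : ℕ) : H28.qPlus m F = H11.qPlus F m :=
  QuadraticMap.ext (H11.qPlus_eq F m)

theorem card_O_plus (m : ℕ) :
    Nat.card (H28.O (H28.qPlus (m + 1) F)) = oOrd (Fintype.card F) (m + 1) := by
  rw [Nat.card_congr (H11.isoOG _ (H28.qPlus (m + 1) F) (H11.qPlus_eq F (m + 1))).toEquiv,
    H11.card_OG_qPlus,
    oOrd_succ Fintype.card_pos, spOrd, Nat.card_eq_fintype_card]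
  ring

theorem card_emb_ts {m k : ℕ} (hk : finrank F U = k) (h : k ≤ m) :
    Nat.card {f : U →ₗ[F] (Fin m ⊕ Fin m → F) // Function.Injective f ∧
      ∀ u, H28.qPlus m F (f u) = 0} = tsFr (Fintype.card F) m k := by
  have h3 := card_emb_eq (U := U) (fun W : Submodule F (Fin m ⊕ Fin m → F) =>
    ∀ u ∈ W, H11.qPlus F m u = 0)
  rw [hk, H11.card_ts_plus m k h] at h3
  simpa [qPlus_eq_qPlus, tsFr] using h3

variable [CharP F 2]

theorem card_level_one {k n : ℕ} {W : Submodule F (Fin (k + n + 1) ⊕ Fin (k + n + 1) → F)}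
    (hk : finrank F W = k) (hW : ∀ u ∈ W, H28.qPlus _ F u = 0) :
    Nat.card {x // (∀ u ∈ W, polar (H28.qPlus _ F) x u = 0) ∧ H28.qPlus _ F x = 1} =
      Fintype.card F ^ (k + n) * (Fintype.card F ^ (n + 1) - 1) := by
  rw [qPlus_eq_qPlus] at *
  have hp := (H11.nd_qPlus F (k + n + 1)).isPolar
  have h1 := hp.card_perp_sing (U := W) ⟨hW, fun u hu v hv =>
    H28.polar_eq_zero_of_singular hW hu hv⟩
  have h2 := H11.card_zeros_qPlus (F := F) (k + n)
  have h3 := H11.card_and_not (p := (· ∈ H9.perp hp.sesq W))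
    (r := fun x => H11.qPlus F _ x = 0 ∧ x ∈ H9.perp hp.sesq W) fun _ h => h.2
  have h4 := H9.finrank_add_finrank_perp hp.sesq W
  have h5 : Nat.card {x // x ∈ H9.perp hp.sesq W ∧
      ¬ (H11.qPlus F _ x = 0 ∧ x ∈ H9.perp hp.sesq W)} = Nat.card (Fˣ ×
        {x // (∀ u ∈ W, polar (H11.qPlus F _) x u = 0) ∧ H11.qPlus F _ x = 1}) := by
    symm
    refine Nat.card_congr (Equiv.ofBijective (fun p => ⟨p.1.1 • p.2.1,
      Submodule.smul_mem _ _ p.2.2.1, fun h => by simpa [H28.Q_smul, p.2.2.2] using h.1⟩)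
      ⟨fun p p' h => ?_, fun x => ?_⟩)
    · have h6 : p.1.1 • p.2.1 = p'.1.1 • p'.2.1 := congrArg Subtype.val h
      have h7 := congrArg (H11.qPlus F _) h6
      rw [H28.Q_smul, H28.Q_smul, p.2.2.2, p'.2.2.2, mul_one, mul_one] at h7
      replace h7 : p.1.1 = p'.1.1 := frobenius_inj F 2 h7
      rw [← h7] at h6
      exact Prod.ext (Units.ext h7) (Subtype.ext (smul_right_injective _ p.1.ne_zero h6))
    · obtain ⟨c, hc⟩ := FiniteField.isSquare_of_char_two (ringChar.eq F 2) (H11.qPlus F _ x.1)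
      have hc0 : c ≠ 0 := by rintro rfl; exact x.2.2 ⟨by simpa using hc, x.2.1⟩
      refine ⟨(Units.mk0 c hc0, ⟨c⁻¹ • x.1, (H9.perp hp.sesq W).smul_mem _ x.2.1, ?_⟩),
        Subtype.ext (smul_inv_smul₀ hc0 _)⟩
      rw [H28.Q_smul, hc]
      field_simp
  rw [h5, H11.card_sub, Nat.card_prod, Nat.card_units] at h3
  simp only [Fintype.card_sum, Fintype.card_fin, hk, Nat.card_eq_fintype_card (α := F)] at h1 h2 h3 h4
  rw [show finrank F (H9.perp hp.sesq W) = k + 2 * n + 2 by omega] at h3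
  rw [show k + n + 1 + (k + n + 1) - k = k + 2 * n + 2 by omega] at h1
  have hq := Fintype.one_lt_card (α := F)
  generalize Fintype.card F = q at *
  refine Nat.eq_of_mul_eq_mul_left (show 0 < (q - 1) * q from Nat.mul_pos (by omega) (by omega)) ?_
  zify [hq.le, Nat.one_le_pow _ q (by omega : 0 < q)] at h1 h2 h3 ⊢
  linear_combination q * h3 - h1 - q * h2

theorem card_emb_nonalt {γ : LinearMap.BilinForm F U} (h : γ.Nondegenerate)
    (hs : ∀ x y, γ y x = γ x y) (ha : ¬ γ.IsAlt) {k n : ℕ} (hk : finrank F U = k + 1) :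
    Nat.card {f : U →ₗ[F] (Fin (k + n + 1) ⊕ Fin (k + n + 1) → F) // Function.Injective f ∧
      (∀ u v, polarBilin (H28.qPlus _ F) (f u) (f v) = 0) ∧ ∀ u, H28.qPlus _ F (f u) = 1 * γ u u} =
      tsFr (Fintype.card F) (k + n + 1) k *
        (Fintype.card F ^ (k + n) * (Fintype.card F ^ (n + 1) - 1)) := by
  haveI := Module.finite_of_finite F (M := U)
  obtain ⟨c, hc⟩ := exists_char_vector h hs
  simp only [hs c] at hc
  have hl : γ c ≠ 0 := fun h0 => ha fun u => by simp [hc, h0]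
  have h1 := Module.Dual.finrank_ker_add_one_of_ne_zero hl
  obtain ⟨u₁, hu₁⟩ := LinearMap.surjective_iff_ne_zero.2 hl 1
  haveI : Finite (U →ₗ[F] (Fin (k + n + 1) ⊕ Fin (k + n + 1) → F)) :=
    Finite.of_injective _ DFunLike.coe_injective
  haveI : Finite (LinearMap.ker (γ c) →ₗ[F] (Fin (k + n + 1) ⊕ Fin (k + n + 1) → F)) :=
    Finite.of_injective _ DFunLike.coe_injective
  rw [← card_emb_ts (F := F) (U := LinearMap.ker (γ c)) (by omega) (by omega)]
  refine H11.card_eq_mul_of_fiber (fun f => ⟨f.1 ∘ₗ Submodule.subtype _,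
    f.2.1.comp Subtype.val_injective, fun u => (f.2.2.2 u).trans (by
      rw [hc, LinearMap.mem_ker.1 u.2]; simp)⟩) ?_
  rintro ⟨f₀, h2, h3⟩
  rw [← card_level_one (W := LinearMap.range f₀) (by
    rw [LinearMap.finrank_range_of_inj h2]; omega) (by rintro _ ⟨u, rfl⟩; exact h3 u)]
  have hπ : ∀ u, u - γ c u • u₁ ∈ LinearMap.ker (γ c) := fun u => by simp [hu₁]
  refine Nat.card_congr (Equiv.ofBijective (fun f => ⟨f.1.1 u₁, ?_, by
    rw [f.1.2.2.2, hc, hu₁]; simp⟩) ⟨fun f f' e => Subtype.ext (Subtype.ext (LinearMap.ext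
      fun u => ?_)), fun x => ?_⟩)
  · rintro _ ⟨u, rfl⟩
    exact (congrArg _ (LinearMap.congr_fun (congrArg Subtype.val f.2) u).symm).trans
      (f.1.2.2.1 u₁ u)
  · have h4 := LinearMap.congr_fun (congrArg Subtype.val (f.2.trans f'.2.symm)) ⟨_, hπ u⟩
    have h5 : f.1.1 u₁ = f'.1.1 u₁ := congrArg Subtype.val e
    simpa [h5] using h4
  · let f : U →ₗ[F] (Fin (k + n + 1) ⊕ Fin (k + n + 1) → F) :=
      f₀ ∘ₗ (LinearMap.id - (γ c).smulRight u₁).codRestrict _ hπ + (γ c).smulRight x.1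
    have hf : ∀ u, f u = f₀ ⟨_, hπ u⟩ + γ c u • x.1 := fun u => rfl
    have h4 : ∀ u, H28.qPlus _ F (f u) = 1 * γ u u := fun u => by
      rw [hf, H28.Q_add, h3, H28.Q_smul, x.2.2, H28.B_smul_right, polar_comm, x.2.1 _ ⟨_, rfl⟩, hc]
      ring
    refine ⟨⟨⟨f, (injective_iff_map_eq_zero _).2 fun u hu => ?_, fun u v => ?_, h4⟩,
      Subtype.ext (LinearMap.ext fun u => ?_)⟩, Subtype.ext ?_⟩
    · have h5 : γ c u = 0 := by simpa [hu, hc] using h4 u
      simpa [hf, h5, map_eq_zero_iff _ h2] using hu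
    · rw [polarBilin_apply_apply, polar, ← map_add, h4, h4, h4, hc, hc, hc, map_add]
      linear_combination (γ c u * γ c v) * (CharTwo.two_eq_zero (R := F))
    · change f u = f₀ u
      simp [hf, LinearMap.mem_ker.1 u.2]
    · change f u₁ = x.1
      simp [hf, hu₁, ← Submodule.zero_eq_bot, show ∀ h, (⟨0, h⟩ : LinearMap.ker (γ c)) = 0 from
        fun _ => rfl]

theorem exists_data_plus {m : ℕ} (h : Fintype.card F ≠ 2 ∨ m ≠ 2) {t : H28.O (H28.qPlus m F)}
    (ht : t ^ 2 = 1) {s : ℕ} (hs : (H28.mat t - 1).rank = s) (hs0 : 0 < s) :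
    ∃ (U : Type u) (_ : AddCommGroup U) (_ : Module F U) (_ : FiniteDimensional F U)
      (γ : LinearMap.BilinForm F U), finrank F U = s ∧ γ.Nondegenerate ∧ (∀ x y, γ y x = γ x y) ∧
      (γ.IsAlt ↔ ∀ v, quadFormPlus m F ((H28.mat t - 1).mulVec v) = 0) ∧ s ≤ m ∧
      (¬ γ.IsAlt → ∀ e, 2 * e = (s - 1) * s + 4 * (s - 1) * (m - s) →
        Nat.card {g : Omega F ⇑(H28.qPlus m F) // (g : H28.O (H28.qPlus m F)) * t = t * g} =
          Fintype.card F ^ e * Nat.card (Isom γ γ) * spOrd (Fintype.card F) (m - s)) ∧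
      (γ.IsAlt → ∀ e, 2 * e + s = s * s + 4 * s * (m - s) →
        Nat.card {g : Omega F ⇑(H28.qPlus m F) // (g : H28.O (H28.qPlus m F)) * t = t * g} *
          (if s = m then 1 else 2) =
          Fintype.card F ^ e * Nat.card (Isom γ γ) * oOrd (Fintype.card F) (m - s)) := by
  have hQ := H28.qPlus_nondeg (F := F) m
  have hok := H28.eichOK_qPlus h
  have hG := wittG_orth hQ
  have hΩ := H28.omega_eq_ker_dickson hQ hok (ringChar.eq F 2)
  obtain ⟨γ, hd⟩ := hG.exists_data ht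
  have h1 : finrank F (LinearMap.range (H28.rho _ t - 1)) = s := by rw [rho_sub_one]; exact hs
  have h2 := two_mul_finrank_le hQ hG.alt.isRefl hd.inj hd.iso
  have h3 := hG.card_centralizer hd
  have h4 := exists_comm_iff hQ hok hd
  have hq := Fintype.one_lt_card (α := F)
  haveI : Finite (H28.O (H28.qPlus m F)) := inferInstance
  simp only [h1, Module.finrank_fintype_fun_eq_card, Fintype.card_sum, Fintype.card_fin] at h2 h4
  refine ⟨_, _, _, inferInstance, γ, h1, hd.nd, hd.symm, ?_, by omega, fun ha e he => ?_,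
    fun ha e he => ?_⟩
  · rw [hd.isAlt_iff hQ]
    refine forall_congr' fun v => ?_
    rw [← one_mul (polarBilin _ v _), ← hG.q_data, rho_sub_one]
    rfl
  · obtain ⟨c, h5, h6⟩ := h4.2 fun h => ha h.1
    obtain ⟨k, rfl⟩ := Nat.exists_eq_add_of_le' hs0
    obtain ⟨n, rfl⟩ : ∃ n, m = k + n + 1 := ⟨m - k - 1, by omega⟩
    rw [← card_comm_ker_mul_two hΩ h5 h6, card_emb_nonalt hd.nd hd.symm ha h1, card_O_plus,
      show oOrd _ (k + n + 1) = _ from oOrd_add _ k (n + 1) (e + k) (by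
        rw [show k + n + 1 - (k + 1) = n by omega, Nat.add_sub_cancel] at he; linarith),
      oOrd_succ (by omega)] at h3
    rw [show k + n + 1 - (k + 1) = n by omega]
    refine Nat.eq_of_mul_eq_mul_right (Nat.mul_pos two_pos (Nat.mul_pos (tsFr_pos hq
      (Nat.le_add_right k (n + 1))) (Nat.mul_pos (pow_pos (zero_lt_one.trans hq) (k + n))
      (Nat.sub_pos_of_lt (Nat.one_lt_pow (n := n + 1) (by omega) hq))))) ?_
    rw [← mul_assoc]
    refine h3.trans ?_
    rw [← add_assoc]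
    ring
  · have h5 : Nat.card {g : Omega F ⇑(H28.qPlus m F) // (g : H28.O (H28.qPlus m F)) * t = t * g} *
        (if s = m then 1 else 2) = Nat.card (Subgroup.centralizer {t}) := by
      split_ifs with h5
      · rw [mul_one]
        refine card_comm_of_le fun c hc => ?_
        have := h4.not.2 (not_not.2 ⟨ha, by omega⟩)
        exact hΩ.ge ((Int.units_eq_one_or _).resolve_right fun h => this ⟨c, hc, h⟩)
      · obtain ⟨c, h6, h7⟩ := h4.2 fun h => h5 (by omega)
        exact card_comm_ker_mul_two hΩ h6 h7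
    rw [h5]
    obtain ⟨n, rfl⟩ := Nat.exists_eq_add_of_le (show s ≤ m by omega)
    rw [Nat.add_sub_cancel_left] at he ⊢
    have h6 := card_emb_ts h1 (Nat.le_add_right s n)
    rw [Nat.card_congr (Equiv.subtypeEquivRight fun f => and_congr_right fun _ =>
      (show _ ↔ ∀ u, H28.qPlus _ F (f u) = 0 from ⟨fun h u => by rw [h.2, ha, mul_zero],
        fun h => ⟨fun u v => by rw [polarBilin_apply_apply, polar, ← map_add, h, h, h]; simp,
          fun u => by rw [h, ha, mul_zero]⟩⟩)), h6] at h3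
    obtain ⟨m, hm⟩ : ∃ m, s + n = m + 1 := ⟨s + n - 1, by omega⟩
    have h7 : Nat.card (H28.O (H28.qPlus (s + n) F)) = oOrd (Fintype.card F) (s + n) := by
      rw [hm, card_O_plus]
    rw [h7, oOrd_add _ s n e he] at h3
    refine Nat.eq_of_mul_eq_mul_right (tsFr_pos hq (Nat.le_add_right s n)) (h3.trans ?_)
    ring

end Cfsg.Agent.H67
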