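import Cfsg.Agent.H67.CentUnip

/-! Generators of the Jordan blocks of a unipotent endomorphism and the residue map of its commutant. -/

set_option autoImplicit false

namespace Cfsg.Agent.H67

open Polynomial Module

variable {F : Type*} [Field F] {ι : Type*} [Fintype ι] [DecidableEq ι]

/-- Generators `v` of the Jordan blocks of `T` and the coordinates `ε` modulo the image of `T - 1`. -/
structure JorData {V : Type*} [AddCommGroup V] [Module F V] (T : End F V) (d : ι → ℕ) (v : ι → V)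
    (ε : V →ₗ[F] (ι → F)) : Prop where
  dec : ∀ x, ∃ z, x = ∑ k, ε x k • v k + (T - 1) z
  low : ∀ s x k, ((T - 1) ^ s) x = 0 → s < d k → ε x k = 0
  nil : ∀ k, ((T - 1) ^ d k) (v k) = 0
  unit : ∀ S : End F V, S * T = T * S → (IsUnit S ↔ IsUnit (Matrix.of fun k l => ε (S (v l)) k))
  lift : ∀ B : Matrix ι ι F, (∀ k l, d l < d k → B k l = 0) →
    ∃ S : End F V, S * T = T * S ∧ ∀ k l, ε (S (v l)) k = B k l
  ind : ∀ s (c : ι → F) z k, d k = s + 1 →
    ∑ l, c l • ((T - 1) ^ s) (v l) = ((T - 1) ^ (s + 1)) z → c k = 0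

theorem jorData_model (d : ι → ℕ) (hd : ∀ k, 0 < d k) :
    JorData (modT fun k => (X - 1 : F[X]) ^ d k) d (fun k => Pi.single k 1)
      (LinearMap.pi fun k => (evOne (hd k)).toLinearMap ∘ₗ LinearMap.proj k) := by
  have hP : (X - 1 : F[X]) ≠ 0 := irreducible_X_sub_one.ne_zero
  have pw : ∀ s (x : Π k, AdjoinRoot ((X - 1 : F[X]) ^ d k)) k,
      ((modT (fun k => (X - 1 : F[X]) ^ d k) - 1) ^ s) x k = AdjoinRoot.mk _ ((X - 1) ^ s) * x k := by
    intro s x k
    rw [← aeval_modT_apply (fun k => (X - 1 : F[X]) ^ d k), aeval_X_sub_one_pow]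
  refine ⟨fun x => ?_, fun s x k h hs => ?_, fun k => ?_, isUnit_iff_isUnit_residue d hd, fun B hB => ?_,
    fun s c z k hk h => ?_⟩
  · have h2 : ∀ k, evOne (hd k) (x k - algebraMap F _ (evOne (hd k) (x k))) = 0 := fun k => by
      rw [map_sub, AlgHom.commutes, sub_eq_zero]; rfl
    choose z hz using fun k => (evOne_eq_zero_iff (hd k) _).1 (h2 k)
    refine ⟨z, funext fun k => ?_⟩
    have := pw 1 z k
    rw [pow_one, pow_one] at this
    rw [Pi.add_apply, this, ← hz, Finset.sum_apply, Finset.sum_eq_single k]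
    · rw [Algebra.algebraMap_eq_smul_one]
      simp
    · intro l _ hl
      simp [Pi.single_eq_of_ne hl.symm]
    · simp
  · have hy := congrFun h k
    rw [pw] at hy
    change evOne (hd k) (x k) = 0
    obtain ⟨a, ha⟩ := AdjoinRoot.mk_surjective (x k)
    rw [← ha] at hy ⊢
    rw [← map_mul, Pi.zero_apply, AdjoinRoot.mk_eq_zero] at hy
    obtain ⟨j, hj⟩ := Nat.exists_eq_add_of_lt hs
    rw [hj, add_assoc, pow_add, mul_dvd_mul_iff_left (pow_ne_zero _ hP)] at hy
    obtain ⟨b, rfl⟩ := (dvd_pow_self _ (Nat.succ_ne_zero j)).trans hy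
    rw [evOne_mk]
    simp
  · funext j
    rw [pw]
    by_cases hj : j = k
    · subst hj; simp
    · simp [Pi.single_eq_of_ne hj]
  · obtain ⟨S, hS⟩ := (commEquiv fun k => (X - 1 : F[X]) ^ d k).surjective fun p =>
      ⟨algebraMap F _ (B p.1 p.2), by
        rw [LinearMap.mem_ker, LinearMap.mulLeft_apply]
        by_cases h : d p.2 < d p.1
        · rw [hB _ _ h, map_zero, mul_zero]
        · rw [AdjoinRoot.mk_eq_zero.2 (pow_dvd_pow _ (not_lt.1 h)), zero_mul]⟩
    refine ⟨S.1, S.2, fun k l => ?_⟩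
    have := congrArg Subtype.val (congrFun hS (k, l))
    rw [commEquiv_apply] at this
    change evOne (hd k) (S.1 (Pi.single l 1) k) = _
    rw [this]
    exact (evOne (hd k)).commutes _
  · have hy := congrFun h k
    rw [pw, AdjoinRoot.mk_eq_zero.2 (by rw [hk]), zero_mul, Finset.sum_apply, Finset.sum_eq_single k] at hy
    · rw [Pi.smul_apply, pw, Pi.single_eq_same, mul_one, smul_eq_zero, AdjoinRoot.mk_eq_zero, hk,
        pow_dvd_pow_iff hP irreducible_X_sub_one.not_isUnit] at hy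
      exact hy.resolve_right (by omega)
    · intro l _ hl
      rw [Pi.smul_apply, pw, Pi.single_eq_of_ne hl.symm, mul_zero, smul_zero]
    · simp

theorem JorData.of_equiv {V W : Type*} [AddCommGroup V] [Module F V] [AddCommGroup W] [Module F W]
    {T : End F V} {T' : End F W} (e : V ≃ₗ[F] W) (he : ∀ x, e (T x) = T' (e x)) {d : ι → ℕ} {v : ι → W}
    {ε : W →ₗ[F] (ι → F)} (h : JorData T' d v ε) :
    JorData T d (fun k => e.symm (v k)) (ε ∘ₗ e.toLinearMap) := by
  have h1 : ∀ x, e ((T - 1) x) = (T' - 1) (e x) := fun x => by simp [he]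
  have pw : ∀ (s : ℕ) x, e (((T - 1) ^ s) x) = ((T' - 1) ^ s) (e x) := intertwine_pow e.toLinearMap h1
  obtain rfl := Sim.eq_conj e he
  let φ : End F V ≃* End F W := (e.conjAlgEquiv F).toMulEquiv
  have hφ : ∀ S : End F V, φ S = e.conj S := fun _ => rfl
  refine ⟨fun x => ?_, fun s x k hx hs => h.low s (e x) k (by rw [← pw, hx, map_zero]) hs, fun k => ?_,
    fun S hS => ?_, fun B hB => ?_, fun s c z k hk hz => h.ind s c (e z) k hk ?_⟩
  · obtain ⟨z, hz⟩ := h.dec (e x)
    refine ⟨e.symm z, e.injective ?_⟩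
    rw [map_add, h1, e.apply_symm_apply, map_sum]
    simpa using hz
  · apply e.injective
    rw [pw, e.apply_symm_apply, h.nil, map_zero]
  · rw [← MulEquiv.isUnit_map φ, h.unit _ (by rw [← hφ, ← map_mul, hS, map_mul])]
    rfl
  · obtain ⟨S, hS, e1⟩ := h.lift B hB
    obtain ⟨S, rfl⟩ := φ.surjective S
    exact ⟨S, φ.injective (by rw [map_mul, map_mul]; exact hS), e1⟩
  · rw [← pw, ← hz, map_sum]
    exact Finset.sum_congr rfl fun l _ => by rw [map_smul, pw, e.apply_symm_apply]

theorem exists_jorData {V : Type*} [AddCommGroup V] [Module F V] {T : End F V} {d : ι → ℕ}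
    (hd : ∀ k, 0 < d k) (h : Sim T (modT fun k => (X - 1 : F[X]) ^ d k)) :
    ∃ v ε, JorData T d v ε :=
  let ⟨e, he⟩ := h
  ⟨_, _, (jorData_model d hd).of_equiv e he⟩

theorem card_subtype_comp_add {A B : Type*} [AddCommGroup A] [AddCommGroup B] (π : A →+ B)
    (U : B → Prop) (hU : ∀ b, U b → ∃ a, π a = b) :
    Nat.card {a // U (π a)} = Nat.card π.ker * Nat.card {b // U b} := by
  choose s hs using hU
  rw [← Nat.card_prod]
  refine Nat.card_congr
    { toFun := fun a => (⟨a.1 - s _ a.2, by simp [hs]⟩, ⟨π a.1, a.2⟩)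
      invFun := fun x => ⟨x.1.1 + s _ x.2.2, by
        rw [map_add, AddMonoidHom.mem_ker.1 x.1.2, zero_add, hs]; exact x.2.2⟩
      left_inv := fun a => by simp
      right_inv := fun x => ?_ }
  obtain ⟨⟨k, hk⟩, ⟨b, hb⟩⟩ := x
  have : π (k + s b hb) = b := by rw [map_add, AddMonoidHom.mem_ker.1 hk, zero_add, hs]
  simp [this]

end Cfsg.Agent.H67
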