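import Mathlib
import Cfsg.Agent.H67.UnitaryEig
import Cfsg.Agent.H67.ClassCount

/-! Classes of elements of prime order in projective linear and unitary groups. -/

set_option autoImplicit false

namespace Cfsg.Agent.H67

open Polynomial

section comb

variable {H : Type*} [CommGroup H] {n r : ℕ}

variable (H n) in
/-- pairs of a translation and a multiset fixed by it -/
def PP := {p : H × Sym H n // p.2.map (p.1 * ·) = p.2}

instance : MulAction H (PP H n) where
  smul η p := ⟨(p.1.1, p.1.2.map (η * ·)), by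
    conv_rhs => rw [← p.2]
    simp only [Sym.map_map]
    exact congrArg (Sym.map · _) (funext fun x => mul_left_comm _ _ _)⟩
  one_smul p := Subtype.ext (Prod.ext rfl (by change Sym.map _ _ = _; simp))
  mul_smul a b p := Subtype.ext (Prod.ext rfl (by
    change Sym.map _ _ = Sym.map _ (Sym.map _ _)
    rw [Sym.map_map]
    exact congrArg (Sym.map · _) (funext fun x => mul_assoc _ _ _)))

theorem PP.smul_fst (η : H) (p : PP H n) : (η • p).1.1 = p.1.1 := rfl

theorem PP.smul_snd (η : H) (p : PP H n) : (η • p).1.2.1 = p.1.2.1.map (η * ·) := rfl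

theorem PP.fix (p : PP H n) : p.1.2.1.map (p.1.1 * ·) = p.1.2.1 := congrArg Subtype.val p.2

variable [Fintype H]

instance : Finite (PP H n) := by classical exact Subtype.finite

theorem sym_fix_iff (hr : r.Prime) (hH : Nat.card H = r) {η : H} (h1 : η ≠ 1) (t : Sym H n) :
    t.map (η * ·) = t ↔ r ∣ n ∧ t.1 = (n / r) • Finset.univ.val := by
  classical
  haveI := Fact.mk hr
  constructor
  · intro h
    have k : ∀ j : ℕ, t.1.count (η ^ j) = t.1.count 1 := fun j => by
      induction j with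
      | zero => rw [pow_zero]
      | succ j ih =>
        rw [← ih, ← Multiset.count_map_eq_count' (η * ·) t.1 (mul_right_injective η) (η ^ j),
          pow_succ']
        exact congrArg _ (congrArg Subtype.val h).symm
    have e : t.1 = t.1.count 1 • Finset.univ.val := Multiset.ext.2 fun x => by
      obtain ⟨j, rfl⟩ := mem_powers_of_prime_card hH h1 (g' := x)
      simpa using k j
    have e2 := congrArg Multiset.card e
    rw [t.2, Multiset.card_nsmul, Finset.card_val, Finset.card_univ, ← Nat.card_eq_fintype_card,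
      hH] at e2
    exact ⟨⟨_, e2.trans (mul_comm _ _)⟩, by rwa [Nat.div_eq_of_eq_mul_left hr.pos e2]⟩
  · rintro ⟨-, h⟩
    refine Subtype.ext ?_
    change t.1.map _ = t.1
    rw [h, Multiset.map_nsmul]
    exact congrArg _ (Multiset.map_univ_val_equiv (Equiv.mulLeft η))

theorem card_sym_fix (hH : Nat.card H = r) :
    Nat.card {t : Sym H n // r ∣ n ∧ t.1 = (n / r) • Finset.univ.val} = if r ∣ n then 1 else 0 := by
  split_ifs with h
  · rw [Nat.card_eq_one_iff_exists]
    refine ⟨⟨⟨(n / r) • Finset.univ.val, ?_⟩, h, rfl⟩, fun t => Subtype.ext (Subtype.ext t.2.2)⟩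
    rw [Multiset.card_nsmul, Finset.card_val, Finset.card_univ, ← Nat.card_eq_fintype_card, hH,
      Nat.div_mul_cancel h]
  · haveI : IsEmpty {t : Sym H n // r ∣ n ∧ t.1 = (n / r) • Finset.univ.val} := ⟨fun t => h t.2.1⟩
    exact Nat.card_of_isEmpty

theorem sum_one_ne (hH : Nat.card H = r) {f : H → ℕ} {b : ℕ} (h : ∀ g, g ≠ 1 → f g = b) :
    ∑ g, f g = f 1 + (r - 1) * b := by
  classical
  rw [← Finset.add_sum_erase _ _ (Finset.mem_univ 1),
    Finset.sum_congr rfl fun g hg => h g (Finset.ne_of_mem_erase hg), Finset.sum_const,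
    Finset.card_erase_of_mem (Finset.mem_univ _), Finset.card_univ, ← Nat.card_eq_fintype_card, hH,
    smul_eq_mul]

theorem card_orb_PP (hr : r.Prime) (hH : Nat.card H = r) (hn : n ≠ 0) :
    Nat.card (MulAction.orbitRel.Quotient H (PP H n)) - 1 =
      ((n + r - 1).choose (r - 1) - r - (if r ∣ n then 1 else 0)) / r +
        r * (if r ∣ n then 1 else 0) := by
  classical
  haveI := Fintype.ofFinite (PP H n)
  have hM : Nat.card (Sym H n) = (n + r - 1).choose (r - 1) := by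
    have := hr.pos
    rw [Nat.card_eq_fintype_card, Sym.card_sym_eq_choose, ← Nat.card_eq_fintype_card, hH,
      add_comm r, Nat.choose_symm_of_eq_add (b := r - 1) (by omega)]
  have hM2 : r ≤ Nat.card (Sym H n) :=
    hH ▸ Nat.card_le_card_of_injective _ (Sym.replicate_right_injective hn)
  have h1 : Nat.card (PP H n) = Nat.card (Sym H n) + (r - 1) * if r ∣ n then 1 else 0 := by
    rw [PP, Nat.card_congr (Equiv.subtypeProdEquivSigmaSubtype fun (a : H) (t : Sym H n) =>
      t.map (a * ·) = t), Nat.card_sigma,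
      sum_one_ne hH (b := if r ∣ n then 1 else 0) fun g hg => by
        rw [← card_sym_fix hH]; simp only [sym_fix_iff hr hH hg]]
    simp
  have h2 := MulAction.sum_card_fixedBy_eq_card_orbits_mul_card_group H (PP H n)
  simp only [← Nat.card_eq_fintype_card] at h2
  rw [sum_one_ne hH (b := r * if r ∣ n then 1 else 0) fun g hg => by
    subst hH
    rw [← card_sym_fix rfl, ← Nat.card_prod]
    refine Nat.card_congr ⟨fun p => (p.1.1.1, ⟨p.1.1.2,
      (sym_fix_iff hr rfl hg _).1 (congrArg (·.1.2) p.2)⟩), fun p => ⟨⟨(p.1, p.2.1), ?_⟩,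
        Subtype.ext (Prod.ext rfl ((sym_fix_iff hr rfl hg _).2 p.2.2))⟩, fun _ => rfl, fun _ => rfl⟩
    by_cases e : p.1 = 1
    · simp [e]
    · exact (sym_fix_iff hr rfl e _).2 p.2.2,
    MulAction.fixedBy_one_eq_univ, Nat.card_univ, h1, hH] at h2
  rw [← hM]
  generalize Nat.card (Sym H n) = M at *
  generalize Nat.card (MulAction.orbitRel.Quotient H (PP H n)) = N at *
  obtain ⟨s, rfl⟩ : ∃ s, r = s + 2 := ⟨r - 2, by have := hr.two_le; omega⟩
  split_ifs at h2 ⊢
  · obtain ⟨k, rfl⟩ : ∃ k, N = k + (s + 2) + 1 := ⟨N - (s + 3), by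
      have : s + 2 < N := lt_of_mul_lt_mul_right (a := s + 2) (by
        rw [← h2]; simp; nlinarith) (Nat.zero_le _)
      omega⟩
    have : M = k * (s + 2) + (s + 2) + 1 := by simp at h2; nlinarith
    rw [show M - (s + 2) - 1 = k * (s + 2) by omega, Nat.mul_div_cancel _ (by omega)]
    simp
  · simp only [mul_zero, add_zero, Nat.sub_zero] at h2 ⊢
    rw [h2, ← Nat.sub_one_mul, Nat.mul_div_cancel _ (by omega)]

end comb

variable {F : Type*} [Field F] {Ω : Type*} [Field Ω] [Algebra F Ω]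
  {ι : Type*} [Fintype ι] [DecidableEq ι]

theorem ev_smul (A : Matrix ι ι F) {c : F} (hc : c ≠ 0) :
    ev Ω (c • A) = (ev Ω A).map (algebraMap F Ω c * ·) := by
  have hc' : algebraMap F Ω c ≠ 0 := by simpa using hc
  have e : (c • A).charpoly.comp (C c * X) = C (c ^ Fintype.card ι) * A.charpoly := by
    rw [Matrix.charpoly, Matrix.charpoly, map_pow, ← Matrix.det_smul, ← coe_compRingHom_apply,
      RingHom.map_det]
    congr 1
    ext i j : 2
    by_cases h : i = j
    · subst h; simp [mul_sub]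
    · simp [h]
  have := map_roots_comp_C_mul_X_add_C ((c • A).charpoly.map (algebraMap F Ω))
    (algebraMap F Ω c) 0 hc'.isUnit
  have e2 := congrArg (Polynomial.map (algebraMap F Ω)) e
  simp only [Polynomial.map_comp, Polynomial.map_mul, map_C, map_X] at e2
  simp only [map_zero, add_zero, e2] at this
  rw [roots_C_mul _ (by simp [hc])] at this
  exact this.symm

variable (Ω) [IsAlgClosed Ω] in
theorem card_proj_classes {G : Type*} [Group G] [Finite G] (φ : G →* Matrix ι ι F) [Nonempty ι]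
    (Z : Subgroup G) [Z.Normal] {r : ℕ} (hr : r.Prime) (hr0 : (r : F) ≠ 0) {e : ℤ}
    (he : (r : ℤ) ∣ e - 1) (he1 : e ≠ 1) (hZ : ∀ g, g ∈ Z ↔ ∃ c : F, φ g = c • 1)
    (hsc : ∀ l : Ω, l ≠ 0 → l ^ e = l → ∃ (z : G) (c : F), φ z = c • 1 ∧ algebraMap F Ω c = l)
    (hfix : ∀ g, (ev Ω (φ g)).map (· ^ e) = ev Ω (φ g))
    (hex : ∀ s : Multiset Ω, s.map (· ^ e) = s → s.card = Fintype.card ι → 0 ∉ s →
      ∃ g, H66.IsSS (φ g) ∧ ev Ω (φ g) = s)
    (hconj : ∀ g h, IsConj (φ g) (φ h) → IsConj g h) :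
    Nat.card {C : ConjClasses (G ⧸ Z) // ∃ g, ConjClasses.mk g = C ∧ orderOf g = r} =
      ((Fintype.card ι + r - 1).choose (r - 1) - r - (if r ∣ Fintype.card ι then 1 else 0)) / r +
        r * (if r ∣ Fintype.card ι then 1 else 0) := by
  classical
  haveI : NeZero r := ⟨hr.ne_zero⟩
  haveI : NeZero (r : Ω) := ⟨by simpa using (algebraMap F Ω).injective.ne hr0⟩
  let H := rootsOfUnity r Ω
  haveI : Fintype H := Fintype.ofFinite _
  let v : H → Ω := fun y => (y.1 : Ω)
  have v0 : ∀ y, v y ≠ 0 := fun y => y.1.ne_zero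
  have vr : ∀ y, v y ^ r = 1 := fun y => (mem_rootsOfUnity' _ _).1 y.2
  have vm : ∀ y y', v (y * y') = v y * v y' := fun _ _ => rfl
  have vi : Function.Injective v := fun _ _ h => Subtype.ext (Units.ext h)
  have vs : ∀ l : Ω, l ^ r = 1 → ∃ y, v y = l := fun l h => ⟨rootsOfUnity.mkOfPowEq l h, rfl⟩
  have ve : ∀ y, v y ^ e = v y := fun y => by
    obtain ⟨k, hk⟩ := he
    rw [eq_add_of_sub_eq hk, zpow_add_one₀ (v0 y), zpow_mul, zpow_natCast, vr, one_zpow, one_mul]
  obtain ⟨x, x0, hx⟩ : ∃ x : H → Ω, (∀ ζ, x ζ ≠ 0) ∧ ∀ ζ, x ζ ^ e = v ζ * x ζ := by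
    have : ∀ ζ, ∃ x : Ω, x ≠ 0 ∧ x ^ e = v ζ * x := fun ζ => by
      obtain ⟨y, hy⟩ := IsAlgClosed.exists_pow_nat_eq (v ζ) (Int.natAbs_pos.2 (sub_ne_zero.2 he1))
      have y0 : y ≠ 0 := by
        rintro rfl
        exact v0 ζ (by rw [← hy, zero_pow (Int.natAbs_ne_zero.2 (sub_ne_zero.2 he1))])
      refine ⟨y ^ (e - 1).sign, zpow_ne_zero _ y0, ?_⟩
      rw [← hy, ← zpow_mul, ← zpow_natCast, ← zpow_add₀ y0, ← Int.sign_mul_self_eq_natAbs]
      congr 1
      ring
    choose x h1 h2 using this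
    exact ⟨x, h1, h2⟩
  have u0 : ∀ (z : G) (c : F), φ z = c • 1 → c ≠ 0 := by
    rintro z _ h rfl
    exact (φ.toHomUnits z).ne_zero (by simpa using h)
  have ex : ∀ g, ∃ a, a ∈ ev Ω (φ g) := fun g =>
    Multiset.card_pos_iff_exists_mem.1 (by rw [card_ev]; exact Fintype.card_pos)
  have ue : ∀ (z : G) (c : F), φ z = c • 1 → algebraMap F Ω c ^ e = algebraMap F Ω c := by
    intro z c h
    obtain ⟨a, ha⟩ := ex z
    have k : ∀ a ∈ ev Ω (φ z), a = algebraMap F Ω c := fun a ha => by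
      simpa using pow_eq_of_mem_ev (k := 1) (by rw [pow_one, h]) ha
    have := k _ (hfix z ▸ Multiset.mem_map_of_mem _ ha)
    rwa [k a ha] at this
  have sc : ∀ (l : Ω), l ≠ 0 → l ^ e = l → ∀ g : G, ∃ g' : G, (g' : G ⧸ Z) = g ∧
      ev Ω (φ g') = (ev Ω (φ g)).map (l * ·) := fun l l0 le g => by
    obtain ⟨z, c, h1, rfl⟩ := hsc l l0 le
    refine ⟨z * g, by rw [QuotientGroup.mk_mul, (QuotientGroup.eq_one_iff z).2 ((hZ z).2 ⟨c, h1⟩),
      one_mul], ?_⟩
    rw [map_mul, h1, smul_mul_assoc, one_mul, ev_smul _ (u0 z c h1)]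
  have pw : ∀ g : G, (g : G ⧸ Z) ^ r = 1 ↔ ∃ c : F, φ g ^ r = c • 1 := fun g => by
    rw [← QuotientGroup.mk_pow, QuotientGroup.eq_one_iff, hZ, map_pow]
  have ss : ∀ g : G, (g : G ⧸ Z) ^ r = 1 → H66.IsSS (φ g) := fun g hg => by
    obtain ⟨c, hc⟩ := (pw g).1 hg
    exact ⟨X ^ r - C c, (separable_X_pow_sub_C c hr0 (u0 _ c ((map_pow φ g r).trans hc))).squarefree,
      by simp [hc, Algebra.algebraMap_eq_smul_one]⟩
  rw [card_conjClasses_orderOf_prime hr, ← card_orb_PP hr
    (HasEnoughRootsOfUnity.natCard_rootsOfUnity Ω r) Fintype.card_ne_zero]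
  congr 1
  refine card_conjClasses_eq_of_rel _ (fun i g => ∃ g' : G, (g' : G ⧸ Z) = g ∧
    ∃ p : PP H (Fintype.card ι), Quotient.mk _ p = i ∧
      ev Ω (φ g') = p.1.2.1.map fun y => x p.1.1 * v y) ?_ ?_ ?_ ?_
  · rintro ⟨p⟩
    obtain ⟨g, h1, h2⟩ := hex (p.1.2.1.map fun y => x p.1.1 * v y) (by
      conv_rhs => rw [← p.fix]
      rw [Multiset.map_map, Multiset.map_map]
      refine Multiset.map_congr rfl fun y _ => ?_
      simp only [Function.comp_apply, mul_zpow, hx, ve, vm]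
      ring) (by rw [Multiset.card_map, p.1.2.2]) (by simp [x0, v0])
    obtain ⟨z, c, -, hc⟩ := hsc (x p.1.1 ^ r) (pow_ne_zero _ (x0 _)) (by
      rw [← zpow_natCast, ← zpow_mul, mul_comm, zpow_mul, hx, zpow_natCast, zpow_natCast, mul_pow,
        vr, one_mul])
    refine ⟨g, (pw g).2 ⟨c, (IsSS_pow_eq_smul_iff (Ω := Ω) h1 r c).2 fun a ha => ?_⟩, g, rfl, p,
      rfl, h2⟩
    obtain ⟨y, -, rfl⟩ := Multiset.mem_map.1 (h2 ▸ ha)
    rw [mul_pow, vr, mul_one, hc]
  · intro g hg
    obtain ⟨g, rfl⟩ := QuotientGroup.mk_surjective g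
    obtain ⟨c, hc⟩ := (pw g).1 hg
    have ce := ue _ c ((map_pow φ g r).trans hc)
    obtain ⟨a, ha⟩ := ex g
    have n0 : ∀ b ∈ ev Ω (φ g), b ≠ 0 := fun b hb => ne_zero_of_mem_ev (φ.toHomUnits g).isUnit hb
    have a0 := n0 a ha
    obtain ⟨ζ, hζ⟩ := vs (a ^ e / a) (by
      rw [div_pow, ← zpow_natCast, ← zpow_mul, mul_comm, zpow_mul, zpow_natCast,
        pow_eq_of_mem_ev hc ha, ce, div_self (pow_eq_of_mem_ev hc ha ▸ pow_ne_zero _ a0)])
    have l : ∀ b : {b // b ∈ ev Ω (φ g)}, ∃ y, v y = b.1 / a := fun b => vs _ (by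
      rw [div_pow, pow_eq_of_mem_ev hc ha, pow_eq_of_mem_ev hc b.2,
        div_self (pow_eq_of_mem_ev hc ha ▸ pow_ne_zero _ a0)])
    choose f hf using l
    have e1 : ((ev Ω (φ g)).attach.map f).map (fun y => a * v y) = ev Ω (φ g) := by
      rw [Multiset.map_map]
      conv_rhs => rw [← Multiset.attach_map_val (ev Ω (φ g))]
      exact Multiset.map_congr rfl fun b _ => by simp [hf, mul_div_cancel₀ _ a0]
    generalize (ev Ω (φ g)).attach.map f = t at e1
    obtain ⟨g', h1, h2⟩ := sc (x ζ / a) (div_ne_zero (x0 _) a0) (by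
      rw [div_zpow, hx, hζ]; field_simp) g
    refine ⟨_, g', h1, ⟨(ζ, ⟨t, by rw [← card_ev Ω (φ g), ← e1, Multiset.card_map]⟩),
      Subtype.ext (Multiset.map_injective (f := fun y => a * v y)
        (fun _ _ h => vi (mul_left_cancel₀ a0 h)) ?_)⟩, rfl, ?_⟩
    · change (t.map (ζ * ·)).map _ = t.map _
      rw [e1, ← hfix g, ← e1, Multiset.map_map, Multiset.map_map]
      refine Multiset.map_congr rfl fun y _ => ?_
      simp only [Function.comp_apply, mul_zpow, ve, vm, hζ]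
      field_simp
    · change _ = t.map fun y => x ζ * v y
      rw [h2, ← e1, Multiset.map_map]
      refine Multiset.map_congr rfl fun y _ => ?_
      simp only [Function.comp_apply]
      field_simp
  · rintro _ _ _ hg hh ⟨g, rfl, p, rfl, h1⟩ ⟨h, rfl, p', e1, h2⟩
    obtain ⟨η, rfl⟩ := MulAction.orbitRel_apply.1 (Quotient.exact e1)
    obtain ⟨g', e2, h3⟩ := sc (v η) (v0 η) (ve η) g
    rw [← e2] at hg ⊢
    refine (QuotientGroup.mk' Z).map_isConj (hconj _ _ (H66.exists_GL_conj_of_charpoly_eq (ss _ hg)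
      (ss _ hh) (charpoly_eq_of_ev (Ω := Ω) ?_)))
    rw [h3, h1, h2, PP.smul_fst, PP.smul_snd, Multiset.map_map, Multiset.map_map]
    exact Multiset.map_congr rfl fun y _ => mul_left_comm _ _ _
  · rintro _ _ _ _ - - ⟨g, rfl, p, rfl, h1⟩ ⟨h, rfl, p', rfl, h2⟩ hc
    obtain ⟨k, hk⟩ := isConj_iff.1 hc
    obtain ⟨k, rfl⟩ := QuotientGroup.mk_surjective k
    rw [← QuotientGroup.mk_inv, ← QuotientGroup.mk_mul, ← QuotientGroup.mk_mul,
      QuotientGroup.eq, hZ] at hk
    obtain ⟨c, hk⟩ := hk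
    have e1 : φ h = c • φ (k * g * k⁻¹) := by
      rw [← mul_inv_cancel_left (k * g * k⁻¹) h, map_mul, hk, mul_smul_comm, mul_one]
    rw [e1, ev_smul _ (u0 _ c hk), ← ev_of_charpoly_eq (charpoly_eq_of_isConj
      (φ.map_isConj (isConj_iff.2 ⟨k, rfl⟩))), h1, Multiset.map_map] at h2
    obtain ⟨y, hy⟩ := Multiset.card_pos_iff_exists_mem.1
      (show 0 < p.1.2.1.card by rw [p.1.2.2]; exact Fintype.card_pos)
    obtain ⟨y', -, e2⟩ := Multiset.mem_map.1 (h2 ▸ Multiset.mem_map_of_mem _ hy)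
    simp only [Function.comp_apply] at e2
    have e3 : p'.1.1 = p.1.1 := vi (mul_right_cancel₀ (mul_ne_zero (x0 p'.1.1) (v0 y')) (by
      have := congrArg (· ^ e) e2
      simp only [mul_zpow, hx, ve, ue _ c hk] at this
      linear_combination this - v p.1.1 * e2))
    rw [e3] at e2 h2
    have e4 : v (y' * y⁻¹) = algebraMap F Ω c := mul_right_cancel₀ (v0 y) (by
      rw [← vm, inv_mul_cancel_right]
      exact mul_left_cancel₀ (x0 p.1.1) (by linear_combination e2))
    have e5 : (y' * y⁻¹) • p = p' → p' ∈ MulAction.orbit H p := fun h => ⟨_, h⟩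
    refine (Quotient.sound (MulAction.orbitRel_apply.2 (e5 (Subtype.ext (Prod.ext e3.symm
      (Subtype.ext (Multiset.map_injective (f := fun y => x p.1.1 * v y)
        (fun _ _ h => vi (mul_left_cancel₀ (x0 _) h)) ?_))))))).symm
    rw [← h2, PP.smul_snd, Multiset.map_map]
    refine Multiset.map_congr rfl fun w _ => ?_
    simp only [Function.comp_apply, vm (y' * y⁻¹), e4]
    ring

end Cfsg.Agent.H67
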