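import Mathlib
import Cfsg.Agent.H67.SpSpec
import Cfsg.Agent.H67.CentUnip

/-! The commutant of a regular unipotent element of the symplectic group. -/

set_option autoImplicit false

namespace Cfsg.Agent.H67

open Module Matrix Polynomial

universe u
variable {F : Type u} [Field F]

/-- a truncated polynomial algebra `F[a]/(a^n)` with the involution `a ↦ -a` -/
structure TruncInv {R : Type*} [CommRing R] [Algebra F R] (σ : R →ₐ[F] R) (ε : R →ₐ[F] F) (a : R)
    (n : ℕ) : Prop where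
  invol : ∀ x, σ (σ x) = x
  ev : ∀ x, ε (σ x) = ε x
  ker : ∀ x, ε x = 0 → ∃ y, x = a * y
  nil : a ^ n = 0
  skew : σ a = -a
  rank : finrank F R = n

namespace TruncInv
variable {R : Type*} [CommRing R] [Algebra F R] {σ : R →ₐ[F] R} {ε : R →ₐ[F] F} {a : R} {n : ℕ}
  (h : TruncInv σ ε a n)
include h

theorem pow_eq_zero {x : R} (hx : ε x = 0) : x ^ n = 0 := by
  obtain ⟨y, rfl⟩ := h.ker x hx
  rw [mul_pow, h.nil, zero_mul]

theorem isUnit {x : R} (hx : ε x ≠ 0) : IsUnit x := by
  have := IsNilpotent.isUnit_add_left_of_commute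
    ⟨n, h.pow_eq_zero (x := x - algebraMap F R (ε x)) (by simp)⟩
    ((isUnit_iff_ne_zero.2 hx).map (algebraMap F R)) (Commute.all _ _)
  simpa using this

theorem card_skew [Finite F] (h2 : (2 : F) ≠ 0) {m : ℕ} (hn : n = 2 * m) :
    Nat.card {s : R // σ s = -s} = Nat.card F ^ m := by
  classical
  have h1 : ∀ k x, ∃ y, x - a ^ k * y ∈ Submodule.span F (Set.range fun i : Fin k => a ^ i.val) := by
    intro k x
    induction k with
    | zero => exact ⟨x, by simp⟩
    | succ k ih =>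
      obtain ⟨y, hy⟩ := ih
      obtain ⟨z, hz⟩ := h.ker (y - algebraMap F R (ε y)) (by simp)
      refine ⟨z, ?_⟩
      have : x - a ^ (k + 1) * z = x - a ^ k * y + ε y • a ^ k := by
        rw [Algebra.smul_def]
        linear_combination a ^ k * hz
      rw [this]
      refine Submodule.add_mem _ (Submodule.span_mono ?_ hy)
        (Submodule.smul_mem _ _ (Submodule.subset_span ⟨Fin.last k, rfl⟩))
      rintro _ ⟨i, rfl⟩
      exact ⟨i.castSucc, rfl⟩
  let b := basisOfTopLeSpanOfCardEqFinrank (R := F) (fun i : Fin n => a ^ i.val) (fun x _ => by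
    obtain ⟨y, hy⟩ := h1 n x
    rwa [h.nil, zero_mul, sub_zero] at hy) (by simp [h.rank])
  have hb : ∀ i, b i = a ^ i.val := fun i => by simp [b]
  have h3 : ∀ x i, b.repr (σ x) i = (-1) ^ i.val * b.repr x i := fun x i => by
    have : b.coord i ∘ₗ σ.toLinearMap = (-1 : F) ^ i.val • b.coord i := b.ext fun j => by
      have : σ (b j) = (-1 : F) ^ j.val • b j := by
        rw [hb, map_pow, h.skew, neg_pow, Algebra.smul_def]
        simp
      simp only [LinearMap.comp_apply, AlgHom.toLinearMap_apply, this, map_smul,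
        LinearMap.smul_apply, Basis.coord_apply, Basis.repr_self, Finsupp.single_apply]
      split_ifs with hj
      · rw [hj]
      · simp
    exact LinearMap.congr_fun this x
  rw [Nat.card_congr ((b.equivFun.toEquiv.subtypeEquiv
    (q := fun v => ∀ i : Fin n, Even i.val → v i = 0) fun s => ?_).trans
    (Equiv.subtypePiEquivPi (p := fun (i : Fin n) (c : F) => Even i.val → c = 0))), Nat.card_pi,
    Fin.prod_univ_eq_prod_range fun i => Nat.card {c : F // Even i → c = 0}, hn]
  · clear hn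
    induction m with
    | zero => simp
    | succ m ih =>
      rw [mul_add, mul_one, Finset.prod_range_succ, Finset.prod_range_succ, ih, pow_succ]
      simp
  · rw [b.ext_elem_iff]
    refine forall_congr' fun i => ?_
    rw [h3, map_neg, Finsupp.neg_apply]
    change _ ↔ (_ → b.repr s i = 0)
    rcases Nat.even_or_odd i.val with hi | hi
    · rw [hi.neg_one_pow, one_mul, eq_neg_iff_add_eq_zero, ← two_mul, mul_eq_zero]
      simp [h2, hi]
    · simp [hi.neg_one_pow, Nat.not_even_iff_odd.2 hi]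

theorem card_unitary [Finite R] (h2 : (2 : F) ≠ 0) :
    Nat.card {c : R // σ c * c = 1} = 2 * Nat.card {s : R // σ s = -s} := by
  have h0 : ∀ s, σ s = -s → ε s = 0 := fun s hs => by
    have := h.ev s
    rw [hs, map_neg, neg_eq_iff_add_eq_zero, ← two_mul] at this
    exact (mul_eq_zero.1 this).resolve_left h2
  have h1 : ∀ s, σ s = -s → IsUnit (1 - s) := fun s hs => h.isUnit (by simp [h0 s hs])
  have h2' : IsUnit (2 : R) := h.isUnit (by rw [map_ofNat]; exact h2)
  have key : ∀ s, σ s = -s → (1 + s) * Ring.inverse (1 - s) * (1 - s) = 1 + s := fun s hs =>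
    Ring.inverse_mul_cancel_right _ _ (h1 s hs)
  have hev : ∀ s, σ s = -s → ε ((1 + s) * Ring.inverse (1 - s)) = 1 := fun s hs => by
    simpa [h0 s hs] using congrArg ε (key s hs)
  rw [← Nat.card_eq_fintype_card (α := Bool) |>.trans Fintype.card_bool, ← Nat.card_prod]
  symm
  refine Nat.card_congr (Equiv.ofBijective (fun p => ⟨(if p.1 then 1 else -1) *
    ((1 + p.2.1) * Ring.inverse (1 - p.2.1)), ?_⟩) ⟨?_, ?_⟩)
  · obtain ⟨b, s, hs⟩ := p
    have k1 := key s hs
    have k2 := congrArg σ k1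
    simp only [map_mul σ _ (1 - s), map_add, map_sub, map_one, hs] at k2
    have k3 : IsUnit (1 + s) := by simpa using h1 (-s) (by simp [hs])
    have : σ ((1 + s) * Ring.inverse (1 - s)) * ((1 + s) * Ring.inverse (1 - s)) = 1 := by
      refine ((h1 s hs).mul k3).mul_right_cancel ?_
      linear_combination (σ ((1 + s) * Ring.inverse (1 - s)) * (1 + s)) * k1 + (1 + s) * k2
    cases b <;> simpa using this
  · rintro ⟨b, s, hs⟩ ⟨b', t, ht⟩ he
    have he' := congrArg Subtype.val he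
    have h3 := congrArg ε he'
    simp only [map_mul ε (if _ then _ else _), hev s hs, hev t ht, mul_one] at h3
    have h4 : (1 : F) ≠ -1 := fun h => h2 (by linear_combination h)
    obtain rfl : b = b' := by
      cases b <;> cases b'
      exacts [rfl, absurd (by simpa using h3.symm) h4, absurd (by simpa using h3) h4, rfl]
    have h5 : (1 + s) * Ring.inverse (1 - s) = (1 + t) * Ring.inverse (1 - t) := by
      cases b <;> simpa using he'
    refine Prod.ext rfl (Subtype.ext (h2'.mul_left_cancel ?_))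
    linear_combination (1 - s) * key t ht - (1 - t) * key s hs + (1 - s) * (1 - t) * h5
  · have h3 : ∀ c, σ c * c = 1 → ε c = 1 → ∃ s, σ s = -s ∧ (1 + s) * Ring.inverse (1 - s) = c := by
      intro c hc hc'
      obtain ⟨w, hw⟩ := (h.isUnit (x := c + 1) (by
        rw [map_add, hc', map_one, one_add_one_eq_two]; exact h2)).exists_right_inv
      have hw' := congrArg σ hw
      rw [map_mul, map_add, map_one] at hw'
      have hs : σ ((c - 1) * w) = -((c - 1) * w) := by
        rw [map_mul, map_sub, map_one]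
        linear_combination (2 * w * σ w) * hc - ((σ c - 1) * σ w) * hw - ((c - 1) * w) * hw'
      refine ⟨_, hs, (h1 _ hs).mul_right_cancel ?_⟩
      rw [key _ hs]
      linear_combination (c - 1) * hw
    rintro ⟨c, hc⟩
    have h4 := congrArg ε hc
    rw [map_mul, h.ev, map_one] at h4
    rcases mul_self_eq_one_iff.1 h4 with h5 | h5
    · obtain ⟨s, hs, hs'⟩ := h3 c hc h5
      exact ⟨(true, ⟨s, hs⟩), Subtype.ext (by simpa using hs')⟩
    · obtain ⟨s, hs, hs'⟩ := h3 (-c) (by simpa using hc) (by simp [h5])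
      exact ⟨(false, ⟨s, hs⟩), Subtype.ext (by simp [hs'])⟩

theorem exists_norm (h2 : (2 : F) ≠ 0) {x : R} (hx : σ x = x) (hx' : ε x ≠ 0) :
    ∃ d, σ d * d * algebraMap F R (ε x) = x := by
  obtain ⟨d, hd⟩ := exists_norm_one_add (σ : R →+* R) (algebraMap F R 2⁻¹) (by
    rw [RingHom.coe_coe, σ.commutes, ← map_add, ← two_mul, mul_inv_cancel₀ h2, map_one])
    h.invol n (x * algebraMap F R (ε x)⁻¹ - 1) (by simp [hx])
    (by rw [pow_succ, h.pow_eq_zero (by simp [hx']), zero_mul])
  refine ⟨d, ?_⟩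
  rw [mul_comm (σ d), ← RingHom.coe_coe, hd, add_sub_cancel, mul_assoc, ← map_mul,
    inv_mul_cancel₀ hx', map_one, mul_one]

end TruncInv

theorem exists_regular_model {m : ℕ} (hm : 1 ≤ m) (h2 : (2 : F) ≠ 0)
    (g : Matrix.symplecticGroup (Fin m) F) (hnil : (g.1 - 1) ^ (2 * m) = 0)
    (hreg : (g.1 - 1).rank = 2 * m - 1) :
    ∃ (R : Type u) (_ : CommRing R) (_ : Algebra F R) (σ : R →ₐ[F] R) (ε : R →ₐ[F] F) (a : R)
      (ψ : R →ₐ[F] Matrix (Fin m ⊕ Fin m) (Fin m ⊕ Fin m) F), TruncInv σ ε a (2 * m) ∧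
      Function.Injective ψ ∧ (∀ M, M * g.1 = g.1 * M ↔ ∃ x, ψ x = M) ∧
      ∀ x, ψ (σ x) = spAdj m F (ψ x) := by
  have hc : Fintype.card (Fin m ⊕ Fin m) = 2 * m := by simp [two_mul]
  have hs := sim_regular_matrix hnil (hc ▸ hreg)
  rw [hc] at hs
  set f : F[X] := (X - 1) ^ (2 * m) with hf
  let ψ : AdjoinRoot f →ₐ[F] Matrix (Fin m ⊕ Fin m) (Fin m ⊕ Fin m) F :=
    Ideal.Quotient.liftₐ _ (aeval g.1) fun a ha => by
      obtain ⟨b, rfl⟩ := Ideal.mem_span_singleton.1 ha
      rw [map_mul, hf, aeval_X_sub_one_pow, hnil, zero_mul]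
  have hψ : ∀ a, ψ (AdjoinRoot.mk _ a) = aeval g.1 a := fun a => rfl
  have hψr : ψ (AdjoinRoot.root f) = g.1 := (hψ X).trans (aeval_X _)
  have hinj : Function.Injective ψ := (injective_iff_map_eq_zero ψ).2 fun x hx => by
    obtain ⟨P, rfl⟩ := AdjoinRoot.mk_surjective x
    have := (hs.aeval P).eq_zero_iff.1 (by rw [aeval_toLin', ← hψ, hx, map_zero])
    rw [aeval_mulLeft, AdjoinRoot.aeval_eq] at this
    simpa using LinearMap.congr_fun this 1
  set ρ := AdjoinRoot.root f
  have h1 : (ρ - 1) ^ (2 * m) = 0 := hinj (by rw [map_pow, map_sub, hψr, map_one, hnil, map_zero])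
  obtain ⟨ρ', hρ⟩ : ∃ ρ', ρ * ρ' = 1 := by
    simpa using (IsNilpotent.isUnit_add_one ⟨_, h1⟩).exists_right_inv
  let σ : AdjoinRoot f →ₐ[F] AdjoinRoot f := AdjoinRoot.liftAlgHom _ (Algebra.ofId F _) ρ' (by
    change aeval ρ' ((X - 1) ^ (2 * m) : F[X]) = 0
    rw [aeval_X_sub_one_pow, show ρ' - 1 = -ρ' * (ρ - 1) by linear_combination hρ, mul_pow, h1,
      mul_zero])
  have hσ : σ ρ = ρ' := AdjoinRoot.liftAlgHom_root _ _ _ _
  have hσ' : σ ρ' = ρ := by
    have := congrArg σ hρ
    rw [map_mul, hσ, map_one] at this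
    linear_combination ρ * this - σ ρ' * hρ
  have hm' : 0 < 2 * m := by omega
  have hε : evOne hm' ρ = 1 := (evOne_mk hm' X).trans eval_X
  have hε' : evOne hm' ρ' = 1 := by simpa [hε] using congrArg (evOne hm') hρ
  have hker : ∀ x, evOne hm' x = 0 → ∃ y, x = (ρ - 1) * y := fun x hx => by
    simpa using (evOne_eq_zero_iff hm' x).1 hx
  refine ⟨AdjoinRoot f, inferInstance, inferInstance, σ, evOne hm', ρ - ρ', ψ,
    ⟨fun x => ?_, fun x => ?_, fun x hx => ?_, ?_, ?_, ?_⟩, hinj, fun M => ⟨fun hM => ?_, ?_⟩,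
    fun x => ?_⟩
  · exact AlgHom.congr_fun (AdjoinRoot.algHom_ext (g₁ := σ.comp σ) (g₂ := AlgHom.id F _)
      (by simp only [AlgHom.comp_apply, AlgHom.id_apply]; rw [hσ, hσ'])) x
  · exact AlgHom.congr_fun (AdjoinRoot.algHom_ext (g₁ := (evOne hm').comp σ) (g₂ := evOne hm')
      (by simp only [AlgHom.comp_apply]; rw [hσ, hε, hε'])) x
  · obtain ⟨y, rfl⟩ := hker x hx
    obtain ⟨w, hw⟩ : ∃ w, (ρ + 1) * w = 1 := by
      have := (IsNilpotent.isUnit_add_left_of_commute ⟨_, h1⟩
        ((isUnit_iff_ne_zero.2 h2).map (algebraMap F _)) (Commute.all _ _)).exists_right_inv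
      rwa [map_ofNat, show 2 + (ρ - 1) = ρ + 1 by ring] at this
    exact ⟨ρ * w * y, by linear_combination (-(ρ - 1) * y) * hw + (w * y) * hρ⟩
  · rw [show ρ - ρ' = ρ' * (ρ + 1) * (ρ - 1) by linear_combination -ρ * hρ, mul_pow, h1, mul_zero]
  · rw [map_sub, hσ, hσ', neg_sub]
  · rw [finrank_adjoinRoot, hf, natDegree_pow, natDegree_X_sub_one, mul_one]
  · obtain ⟨P, hP⟩ := exists_aeval_of_comm_of_sim hs (Matrix.toLin' M) (by
      change _ ∘ₗ _ = _ ∘ₗ _
      rw [← Matrix.toLin'_mul, ← Matrix.toLin'_mul, hM])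
    rw [aeval_toLin', Matrix.toLin'.injective.eq_iff] at hP
    exact ⟨_, (hψ P).trans hP.symm⟩
  · rintro ⟨x, rfl⟩
    rw [← hψr, ← map_mul, ← map_mul, mul_comm]
  · obtain ⟨P, rfl⟩ := AdjoinRoot.mk_surjective x
    rw [hψ, anti_aeval _ spAdj_mul spAdj_spAdj spAdj_smul, ← AdjoinRoot.aeval_eq,
      ← aeval_algHom_apply, ← aeval_algHom_apply, hσ]
    congr 2
    have := congrArg ψ hρ
    rw [map_mul, hψr, map_one] at this
    rw [← one_mul (ψ ρ'), ← mem_sp_iff_spAdj.1 g.2, mul_assoc, this, mul_one]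

end Cfsg.Agent.H67
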