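import Cfsg.Agent.H67.JorData
import Cfsg.Agent.H67.SUConj
import Cfsg.Agent.H10.GUCard

/-! The order of the centraliser of a unipotent element of `GU_n(q)`. -/

set_option autoImplicit false
set_option linter.unusedSectionVars false

namespace Cfsg.Agent.H67

open Matrix Polynomial

variable {K : Type*} [Field K] [Fintype K] {q : ℕ} [hK : Fact (Fintype.card K = q ^ 2)]
  {ι : Type*} [Fintype ι] [DecidableEq ι] {n : ℕ}

local notation "σ" => H10.cj K q
local notation "𝐡" => hermForm n K q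

/-- The units of the commutant act transitively on its Hermitian units. -/
theorem card_comm_unit {u : Matrix ι ι K} (hu : cjT q u * u = 1) :
    Nat.card {g : Matrix ι ι K // g * u = u * g ∧ IsUnit g} =
      Nat.card {w : Matrix ι ι K // w * u = u * w ∧ cjT q w * w = 1} *
        Nat.card {H : Matrix ι ι K // (H * u = u * H ∧ cjT q H = H) ∧ IsUnit H} := by
  choose c hc hc' using fun H : {H : Matrix ι ι K // (H * u = u * H ∧ cjT q H = H) ∧ IsUnit H} =>
    exists_cjT_mul_self H.2.1.2 H.2.2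
  have cu : ∀ H, IsUnit (c H) := fun H => by
    have := H.2.2
    rw [← hc' H, isUnit_iff_isUnit_det, det_mul, IsUnit.mul_iff] at this
    exact (isUnit_iff_isUnit_det _).2 this.2
  have cc : ∀ H, c H * u = u * c H := fun H => (hc H u H.2.1.1.symm).symm
  rw [← Nat.card_prod]
  symm
  refine Nat.card_congr (Equiv.ofBijective (fun x => ⟨x.1.1 * c x.2, by
    rw [mul_assoc, cc, ← mul_assoc, x.1.2.1, mul_assoc],
    (IsUnit.of_mul_eq_one_right _ x.1.2.2).mul (cu _)⟩) ⟨?_, ?_⟩)
  · rintro ⟨w, H⟩ ⟨w', H'⟩ e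
    have e1 : w.1 * c H = w'.1 * c H' := congrArg Subtype.val e
    have k : ∀ (w : {w : Matrix ι ι K // w * u = u * w ∧ cjT q w * w = 1}) H,
        cjT q (w.1 * c H) * (w.1 * c H) = H.1 := fun w H => by
      rw [cjT_mul, mul_assoc, ← mul_assoc (cjT q w.1), w.2.2, one_mul, hc']
    obtain rfl : H = H' := Subtype.ext (by rw [← k w H, e1, k])
    rw [Subtype.ext ((cu H).mul_right_cancel e1)]
  · rintro ⟨g, hg, gu⟩
    have hH : (cjT q g * g * u = u * (cjT q g * g) ∧ cjT q (cjT q g * g) = cjT q g * g) ∧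
        IsUnit (cjT q g * g) := by
      refine ⟨⟨by rw [mul_assoc, hg, ← mul_assoc, cjT_comm_of_comm hu hg, mul_assoc],
        by rw [cjT_mul, cjT_cjT]⟩, IsUnit.mul ?_ gu⟩
      obtain ⟨g', e⟩ := gu.exists_left_inv
      exact IsUnit.of_mul_eq_one (cjT q g') (by rw [← cjT_mul, e, cjT_one])
    obtain ⟨c', e⟩ := (cu ⟨_, hH⟩).exists_right_inv
    have e' := mul_eq_one_comm.1 e
    refine ⟨(⟨g * c', ?_, ?_⟩, ⟨_, hH⟩), Subtype.ext ?_⟩
    · have : c' * u = u * c' := by
        calc c' * u = c' * u * (c ⟨_, hH⟩ * c') := by rw [e, mul_one]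
          _ = c' * (u * c ⟨_, hH⟩) * c' := by simp only [mul_assoc]
          _ = u * c' := by rw [← cc, ← mul_assoc, e', one_mul]
      rw [mul_assoc, this, ← mul_assoc, hg, mul_assoc]
    · have := hc' ⟨_, hH⟩
      rw [cjT_mul, mul_assoc, ← mul_assoc (cjT q g), ← show _ = cjT q g * g from this, mul_assoc, e,
        mul_one, ← cjT_mul, e, cjT_one]
    · show g * c' * c _ = g
      rw [mul_assoc, e', mul_one]

/-- A subspace closed under the adjoint has `q`-dimension twice that of its Hermitian part. -/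
theorem card_eq_herm_sq (P : Matrix ι ι K → Prop) (hadd : ∀ a b, P a → P b → P (a + b))
    (hs : ∀ (c : K) a, P a → P (c • a)) (hc : ∀ a, P a → P (cjT q a)) :
    Nat.card {a // P a} = Nat.card {a // P a ∧ cjT q a = a} ^ 2 := by
  obtain ⟨ω, hω⟩ := H10.exists_cj_ne K q
  have n0 : ω - σ ω ≠ 0 := sub_ne_zero.2 hω.symm
  rw [pow_two, ← Nat.card_prod]
  symm
  refine Nat.card_congr (Equiv.ofBijective
    (fun x => ⟨x.1.1 + ω • x.2.1, hadd _ _ x.1.2.1 (hs _ _ x.2.2.1)⟩) ⟨?_, ?_⟩)
  · rintro ⟨⟨a, ha, ha'⟩, ⟨b, hb, hb'⟩⟩ ⟨⟨a₁, ha₁, ha₁'⟩, ⟨b₁, hb₁, hb₁'⟩⟩ e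
    have e1 : a + ω • b = a₁ + ω • b₁ := congrArg Subtype.val e
    have e2 := congrArg (cjT q) e1
    rw [map_add, map_add, cjT_smul, cjT_smul, ha', hb', ha₁', hb₁'] at e2
    obtain rfl : b = b₁ := smul_right_injective _ n0 (by
      show (ω - σ ω) • b = (ω - σ ω) • b₁
      linear_combination (norm := module) e1 - e2)
    obtain rfl : a = a₁ := add_right_cancel e1
    rfl
  · rintro ⟨j, hj⟩
    have hb : P ((ω - σ ω)⁻¹ • (j + (-1 : K) • cjT q j)) := hs _ _ (hadd _ _ hj (hs _ _ (hc _ hj)))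
    have hb' : cjT q ((ω - σ ω)⁻¹ • (j + (-1 : K) • cjT q j)) =
        (ω - σ ω)⁻¹ • (j + (-1 : K) • cjT q j) := by
      rw [cjT_smul, map_add, cjT_smul, cjT_cjT, map_inv₀, map_sub, H10.cj_cj, map_neg, map_one,
        ← neg_sub ω, inv_neg]
      module
    have hb2 : (ω - σ ω) • ((ω - σ ω)⁻¹ • (j + (-1 : K) • cjT q j)) = j + (-1 : K) • cjT q j :=
      smul_inv_smul₀ n0 _
    generalize (ω - σ ω)⁻¹ • (j + (-1 : K) • cjT q j) = b at hb hb' hb2
    refine ⟨(⟨j + (-ω) • b, hadd _ _ hj (hs _ _ hb), ?_⟩, ⟨b, hb, hb'⟩), Subtype.ext ?_⟩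
    · rw [map_add, cjT_smul, hb', map_neg]
      linear_combination (norm := module) hb2
    · show j + (-ω) • b + ω • b = j
      module

theorem herm_adj (M : Matrix (Fin n) (Fin n) K) (x y : Fin n → K) : 𝐡 (M *ᵥ x) y = 𝐡 x (cjT q M *ᵥ y) := by
  simp only [H10.herm_eq, mulVec, dotProduct, cjT_apply, transpose_apply, map_apply, map_sum, map_mul,
    H10.cj_cj, Finset.sum_mul, Finset.mul_sum]
  rw [Finset.sum_comm]
  exact Finset.sum_congr rfl fun i _ => Finset.sum_congr rfl fun j _ => by ring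

section

variable {u : Matrix (Fin n) (Fin n) K}

theorem herm_sub_one_pow (hu : cjT q u * u = 1) (j : ℕ) (x y : Fin n → K) :
    𝐡 ((u - 1) ^ j *ᵥ x) y = (-1) ^ j * 𝐡 x (cjT q u ^ j *ᵥ (u - 1) ^ j *ᵥ y) := by
  have hc : Commute (cjT q u) (u - 1) :=
    (show Commute (cjT q u) u from hu.trans (mul_eq_one_comm.1 hu).symm).sub_right (Commute.one_right _)
  induction j generalizing x with
  | zero => simp
  | succ j ih =>
    have e : cjT q (u - 1) = -(cjT q u * (u - 1)) := by
      rw [map_sub, cjT_one, mul_sub, hu, mul_one, neg_sub]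
    rw [pow_succ, ← mulVec_mulVec, ih, herm_adj, e, neg_mulVec, H10.herm_neg_right, mulVec_mulVec,
      mulVec_mulVec, mulVec_mulVec, ← pow_succ (u - 1), ← hc.mul_pow, mul_assoc _ (cjT q u ^ j),
      ← hc.mul_pow, ← pow_succ']
    ring

theorem herm_pow_zero (hu : cjT q u * u = 1) {j : ℕ} (x : Fin n → K) {y : Fin n → K}
    (h : (u - 1) ^ j *ᵥ y = 0) : 𝐡 ((u - 1) ^ j *ᵥ x) y = 0 := by
  rw [herm_sub_one_pow hu, h, mulVec_zero, H10.herm_zero_right, mul_zero]

theorem herm_pow_swap (hu : cjT q u * u = 1) {j : ℕ} (x : Fin n → K) {y : Fin n → K}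
    (h : (u - 1) ^ (j + 1) *ᵥ y = 0) : 𝐡 ((u - 1) ^ j *ᵥ x) y = (-1) ^ j * 𝐡 x ((u - 1) ^ j *ᵥ y) := by
  rw [herm_sub_one_pow hu]
  rw [pow_succ', ← mulVec_mulVec, sub_mulVec, one_mulVec, sub_eq_zero] at h
  generalize (u - 1) ^ j *ᵥ y = z at h
  have h1 : cjT q u *ᵥ z = z := by
    conv_lhs => rw [← h, mulVec_mulVec, hu, one_mulVec]
  have : ∀ i : ℕ, cjT q u ^ i *ᵥ z = z := fun i => by
    induction i with
    | zero => simp
    | succ i ih => rw [pow_succ, ← mulVec_mulVec, h1, ih]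
  rw [this]

theorem exists_herm_ne (hu : cjT q u * u = 1) {j : ℕ} {x : Fin n → K} (h : ∀ z, x ≠ (u - 1) ^ j *ᵥ z) :
    ∃ y, (u - 1) ^ j *ᵥ y = 0 ∧ 𝐡 x y ≠ 0 := by
  obtain ⟨f, h1, h2⟩ := Submodule.exists_le_ker_of_notMem (p := LinearMap.range (toLin' ((u - 1) ^ j)))
    (v := x) fun ⟨z, e⟩ => h z e.symm
  have hf : ∀ w, 𝐡 w (fun i => σ (f (Pi.single i 1))) = f w := fun w => by
    simp only [H10.herm_eq, H10.cj_cj]
    rw [LinearMap.pi_apply_eq_sum_univ f w]
    refine Finset.sum_congr rfl fun i _ => ?_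
    rw [smul_eq_mul]
    congr 2
    funext k
    simp [Pi.single_apply, eq_comm]
  refine ⟨_, ?_, by rwa [hf]⟩
  have h3 := H10.eq_zero_of_herm_right (q := q) (x := cjT q u ^ j *ᵥ (u - 1) ^ j *ᵥ
      fun i => σ (f (Pi.single i 1))) fun z => by
    have := herm_sub_one_pow hu j z fun i => σ (f (Pi.single i 1))
    rw [hf, show f ((u - 1) ^ j *ᵥ z) = 0 from h2 ⟨z, rfl⟩] at this
    exact (mul_eq_zero.1 this.symm).resolve_left (pow_ne_zero _ (neg_ne_zero.2 one_ne_zero))
  have h4 : u ^ j * cjT q u ^ j = 1 := by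
    rw [← Commute.mul_pow (show Commute u (cjT q u) from (mul_eq_one_comm.1 hu).trans hu.symm),
      mul_eq_one_comm.1 hu, one_pow]
  have := congrArg (u ^ j *ᵥ ·) h3
  simp only [mulVec_zero] at this
  rwa [mulVec_mulVec, h4, one_mulVec] at this

end

/-- The forms induced on the generators of the Jordan blocks. -/
theorem exists_rho {u : Matrix (Fin n) (Fin n) K} (hu : cjT q u * u = 1) {d : ι → ℕ} (hd : ∀ k, 0 < d k)
    (hs : Sim (toLin' u) (modT fun k => (X - 1 : K[X]) ^ d k)) {M : ℕ} (hM : ∀ k, d k < M) :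
    ∃ ρ : Matrix (Fin n) (Fin n) K →ₗ[K] Π s : Fin M, Matrix {k // d k = s} {k // d k = s} K,
      (∀ a, a * u = u * a → ∀ s, ρ (cjT q a) s = cjT q (ρ a s)) ∧
      (∀ a, a * u = u * a → (IsUnit a ↔ ∀ s, IsUnit (ρ a s))) ∧
      ∀ b, ∃ a, a * u = u * a ∧ ρ a = b := by
  obtain ⟨v, ε, J⟩ := exists_jorData hd hs
  obtain ⟨μ, μ0, hμ⟩ := H10.exists_skew K q
  have pw : ∀ (s : ℕ) x, ((toLin' u - 1) ^ s) x = (u - 1) ^ s *ᵥ x := fun s x => by
    rw [toLin'_sub_one, toLin'_pow', toLin'_apply]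
  have nil : ∀ k s, d k ≤ s → (u - 1) ^ s *ᵥ v k = 0 := fun k s h => by
    obtain ⟨j, rfl⟩ := Nat.exists_eq_add_of_le' h
    rw [pow_add, ← mulVec_mulVec, ← pw (d k), J.nil, mulVec_zero]
  have dec : ∀ x, ∃ z, x = ∑ k, ε x k • v k + (u - 1) *ᵥ z := fun x => by
    simpa only [toLin'_sub_one, toLin'_apply] using J.dec x
  have cm : ∀ a, a * u = u * a → ∀ (s : ℕ) x, (u - 1) ^ s *ᵥ a *ᵥ x = a *ᵥ (u - 1) ^ s *ᵥ x := by
    intro a ha s x
    rw [mulVec_mulVec, mulVec_mulVec,
      (((show Commute a u from ha).sub_right (Commute.one_right _)).pow_right s).eq]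
  let ρ : Matrix (Fin n) (Fin n) K →ₗ[K] Π s : Fin M, Matrix {k // d k = s} {k // d k = s} K :=
    { toFun := fun a s => of fun k l => μ ^ (s.1 - 1) * 𝐡 ((u - 1) ^ (s.1 - 1) *ᵥ a *ᵥ v l) (v k)
      map_add' := fun a b => by
        ext s k l
        simp only [of_apply, Pi.add_apply, Matrix.add_apply, add_mulVec, mulVec_add, H10.herm_add_left,
          mul_add]
      map_smul' := fun c a => by
        ext s k l
        simp only [of_apply, Pi.smul_apply, Matrix.smul_apply, smul_mulVec, mulVec_smul,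
          H10.herm_smul_left, RingHom.id_apply, smul_eq_mul]
        ring }
  have hρ : ∀ a s k l, ρ a s k l = μ ^ (s.1 - 1) * 𝐡 ((u - 1) ^ (s.1 - 1) *ᵥ a *ᵥ v l) (v k) :=
    fun _ _ _ _ => rfl
  have sz : ∀ {s : Fin M} (k : {k // d k = s}), s.1 - 1 + 1 = d k := fun k => by
    have := hd k; have := k.2; omega
  have tri : ∀ a, a * u = u * a → (of fun k l => ε (a *ᵥ v l) k).BlockTriangular d := by
    intro a ha k l h
    exact J.low (d l) _ k (by rw [pw, cm a ha, nil l _ le_rfl, mulVec_zero]) h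
  have fac : ∀ a, a * u = u * a → ∀ s : Fin M,
      ρ a s = ρ 1 s * (of fun k l => ε (a *ᵥ v l) k).toSquareBlock d s := by
    intro a ha s
    ext k l
    obtain ⟨z, hz⟩ := dec (a *ᵥ v l)
    rw [hρ, hz, mulVec_add, H10.herm_add_left, mulVec_mulVec, ← pow_succ,
      herm_pow_zero hu _ (nil k _ (sz k).ge), add_zero, mulVec_sum, H10.herm_sum_left, Finset.mul_sum,
      mul_apply, ← Fintype.sum_subtype_add_sum_subtype (fun m => d m = s)]
    refine (congrArg₂ (· + ·) ?_ ?_).trans (add_zero _)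
    · refine Finset.sum_congr rfl fun m _ => ?_
      rw [hρ, one_mulVec, mulVec_smul, H10.herm_smul_left, toSquareBlock_def, of_apply, of_apply]
      ring
    · refine Finset.sum_eq_zero fun m _ => ?_
      rcases lt_or_gt_of_ne m.2 with h | h
      · rw [mulVec_smul, nil m _ (by omega), smul_zero, H10.herm_zero_left, mul_zero]
      · rw [show ε (a *ᵥ v l) m = 0 from tri a ha (show d l < d m by rw [l.2]; exact h), zero_smul,
          mulVec_zero, H10.herm_zero_left, mul_zero]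
  have G1 : ∀ s, IsUnit (ρ 1 s) := by
    intro s
    rw [← mulVec_injective_iff_isUnit, ← coe_mulVecLin, injective_iff_map_eq_zero]
    intro c hc
    let c' : ι → K := fun m => if h : d m = s then c ⟨m, h⟩ else 0
    have ex : ∑ m, c' m • (u - 1) ^ (s.1 - 1) *ᵥ v m =
        (u - 1) ^ (s.1 - 1) *ᵥ ∑ l : {k // d k = s}, c l • v l := by
      rw [← Fintype.sum_subtype_add_sum_subtype (fun m => d m = s), mulVec_sum,
        Finset.sum_eq_zero (s := (Finset.univ : Finset {m // ¬ d m = s}))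
          fun m _ => by simp only [c', dif_neg m.2, zero_smul], add_zero]
      exact Finset.sum_congr rfl fun m _ => by simp only [c', dif_pos m.2, mulVec_smul]
    funext k
    by_contra c0
    obtain ⟨y, y0, hy⟩ := exists_herm_ne hu (j := s.1 - 1 + 1)
      (x := (u - 1) ^ (s.1 - 1) *ᵥ ∑ l : {k // d k = s}, c l • v l) fun z e => c0 (by
        have := J.ind (s.1 - 1) c' z k (sz k).symm (by simp only [pw]; rw [ex, e])
        simp only [c', dif_pos k.2] at this
        exact this)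
    apply hy
    obtain ⟨z, hz⟩ := dec y
    rw [hz, H10.herm_add_right, H10.herm_sum_right, Finset.sum_eq_zero, zero_add]
    · apply H10.herm_swap_zero
      rw [← pow_one (u - 1), ← pow_mul, one_mul]
      refine herm_pow_zero hu _ ?_
      rw [mulVec_mulVec, ← pow_add, mulVec_sum]
      exact Finset.sum_eq_zero fun l _ => by rw [mulVec_smul, nil l _ (by have := sz l; omega), smul_zero]
    · intro m _
      rw [H10.herm_smul_right]
      rcases lt_trichotomy (d m) s with h | h | h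
      · rw [herm_pow_zero hu _ (nil m _ (by omega)), mul_zero]
      · have := congrFun hc ⟨m, h⟩
        rw [mulVecLin_apply, mulVec, dotProduct] at this
        simp only [hρ, one_mulVec, mul_assoc, ← Finset.mul_sum, Pi.zero_apply] at this
        rw [mulVec_sum, H10.herm_sum_left]
        simp only [mulVec_smul, H10.herm_smul_left, mul_comm (c _)]
        rw [(mul_eq_zero.1 this).resolve_left (pow_ne_zero _ μ0), mul_zero]
      · rw [J.low (s.1 - 1 + 1) y m (by rw [pw, y0]) (by have := sz k; have := k.2; omega), map_zero,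
          zero_mul]
  refine ⟨ρ, fun a ha s => ?_, fun a ha => ?_, fun b => ?_⟩
  · ext k l
    rw [cjT_apply (ρ a s), transpose_apply, map_apply, hρ, hρ, map_mul, H10.cj_herm, map_pow, hμ,
      cm _ (cjT_comm_of_comm hu ha), herm_adj, cjT_cjT, herm_pow_swap hu _ (by
        rw [cm a ha, nil k _ (sz k).ge, mulVec_zero]), neg_pow μ]
    ring
  · have h1 : IsUnit a ↔ IsUnit (toLin' a) :=
      (MulEquiv.isUnit_map (toLinAlgEquiv' (R := K) (n := Fin n)).toMulEquiv).symm
    rw [h1, J.unit _ (by rw [Module.End.mul_eq_comp, Module.End.mul_eq_comp, ← toLin'_mul, ← toLin'_mul, ha])]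
    simp only [toLin'_apply]
    rw [isUnit_iff_isUnit_det, (tri a ha).det, isUnit_iff_ne_zero, Finset.prod_ne_zero_iff]
    constructor
    · intro h s
      rw [fac a ha]
      refine (G1 s).mul ((isUnit_iff_isUnit_det _).2 ?_)
      by_cases hs : s.1 ∈ Finset.univ.image d
      · exact (h _ hs).isUnit
      · have : IsEmpty {k // d k = s} := ⟨fun k => hs (Finset.mem_image.2 ⟨k, Finset.mem_univ _, k.2⟩)⟩
        rw [det_isEmpty]; exact isUnit_one
    · intro h s hs
      obtain ⟨k, -, rfl⟩ := Finset.mem_image.1 hs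
      have := h ⟨d k, hM k⟩
      rw [fac a ha, isUnit_iff_isUnit_det, det_mul, IsUnit.mul_iff] at this
      exact this.2.ne_zero
  · choose g hg using fun s => (G1 s).exists_right_inv
    obtain ⟨S, hS, e⟩ := J.lift (of fun k l =>
      if h : d l = d k then (g ⟨d k, hM k⟩ * b ⟨d k, hM k⟩) ⟨k, rfl⟩ ⟨l, h⟩ else 0)
      fun k l h => dif_neg h.ne
    obtain ⟨a, rfl⟩ := (toLin' (R := K) (m := Fin n) (n := Fin n)).surjective S
    have ha : a * u = u * a := toLin'.injective (by rw [toLin'_mul, toLin'_mul]; exact hS)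
    refine ⟨a, ha, funext fun s => ?_⟩
    have : (of fun k l => ε (a *ᵥ v l) k).toSquareBlock d s = g s * b s := by
      ext ⟨k, hk⟩ ⟨l, hl⟩
      obtain rfl : s = ⟨d k, hM k⟩ := Fin.ext hk.symm
      exact (e k l).trans (dif_pos hl)
    rw [fac a ha, this, ← mul_assoc, hg, one_mul]

theorem card_unitary (κ : Type*) [Fintype κ] [DecidableEq κ] :
    Nat.card {w : Matrix κ κ K // w * 1 = 1 * w ∧ cjT q w * w = 1} =
      Nat.card (GU (Fintype.card κ) K q) := by
  let e := Fintype.equivFin κ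
  refine Nat.card_congr (Equiv.ofBijective (fun w => H10.mkGU (reindex e e w.1) ((isIsom_iff_cjT _).2 (by
    have := congrArg (reindexAlgEquiv K K e) w.2.2
    rw [map_mul, map_one] at this
    exact this))) ⟨fun w w' h => ?_, fun g => ?_⟩)
  · exact Subtype.ext ((reindex e e).injective (congrArg H10.gm h))
  · refine ⟨⟨reindex e.symm e.symm (H10.gm g), by simp, ?_⟩, H10.gm_injective ?_⟩
    · have := congrArg (reindexAlgEquiv K K e.symm) ((isIsom_iff_cjT _).1 (H10.gm_isIsom g))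
      rw [map_mul, map_one] at this
      exact this
    · exact (reindex e e).apply_symm_apply _

theorem card_comm_unit_gl (u : Matrix ι ι K) :
    Nat.card {g : Matrix ι ι K // g * u = u * g ∧ IsUnit g} = centCard (toLin' u) := by
  rw [← card_comm_gl_eq_centCard]
  symm
  refine Nat.card_congr (Equiv.ofBijective (fun g => ⟨g.1, g.2, g.1.isUnit⟩) ⟨fun g h e => ?_, ?_⟩)
  · exact Subtype.ext (Units.ext (congrArg Subtype.val e))
  · rintro ⟨g, h1, h2⟩
    exact ⟨⟨h2.unit, h1⟩, rfl⟩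

/-- the order of the centraliser of a unipotent unitary matrix with Jordan blocks `d k` -/
theorem card_unitary_comm {u : Matrix (Fin n) (Fin n) K} (hu : cjT q u * u = 1) {d : ι → ℕ}
    (hd : ∀ k, 0 < d k) (hs : Sim (toLin' u) (modT fun k => (X - 1 : K[X]) ^ d k)) {M : ℕ}
    (hM : ∀ k, d k < M) :
    Nat.card {w : Matrix (Fin n) (Fin n) K // w * u = u * w ∧ cjT q w * w = 1} =
      q ^ (∑ k, ∑ l, (min (d k) (d l) - if d k = d l then 1 else 0)) *
        ∏ s ∈ Finset.range M, Nat.card (GU (Fintype.card {k // d k = s}) K q) := by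
  obtain ⟨ρ, h1, h2, h3⟩ := exists_rho hu hd hs hM
  let A : AddSubgroup (Matrix (Fin n) (Fin n) K) :=
    { carrier := {a | a * u = u * a}
      add_mem' := fun {a b} ha hb => by
        simp only [Set.mem_setOf_eq] at *; rw [add_mul, mul_add, ha, hb]
      zero_mem' := by simp
      neg_mem' := fun {a} ha => by simpa using ha }
  let H : AddSubgroup (Matrix (Fin n) (Fin n) K) :=
    { carrier := {a | a * u = u * a ∧ cjT q a = a}
      add_mem' := fun {a b} ha hb => ⟨A.add_mem ha.1 hb.1, by rw [map_add, ha.2, hb.2]⟩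
      zero_mem' := ⟨by simp, map_zero _⟩
      neg_mem' := fun {a} ha => ⟨A.neg_mem ha.1, by rw [map_neg, ha.2]⟩ }
  have c1 := card_subtype_comp_add (ρ.toAddMonoidHom.comp A.subtype) (fun b => ∀ s, IsUnit (b s))
    fun b _ => let ⟨a, ha, e⟩ := h3 b; ⟨⟨a, ha⟩, e⟩
  have c2 := card_subtype_comp_add (ρ.toAddMonoidHom.comp H.subtype)
    (fun b => ∀ s, (b s * 1 = 1 * b s ∧ cjT q (b s) = b s) ∧ IsUnit (b s)) fun b hb => by
      obtain ⟨a, ha, e⟩ := h3 b
      obtain ⟨l, hl⟩ := H10.exists_trace_eq_one K q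
      have ha' : l • a * u = u * l • a := by rw [smul_mul_assoc, mul_smul_comm, ha]
      refine ⟨⟨l • a + cjT q (l • a), A.add_mem ha' (cjT_comm_of_comm hu ha'), by
        rw [map_add, cjT_cjT, add_comm]⟩, funext fun s => ?_⟩
      show ρ (l • a + cjT q (l • a)) s = b s
      rw [map_add, Pi.add_apply, h1 _ ha', map_smul, e, Pi.smul_apply, cjT_smul, (hb s).1.2, ← add_smul,
        hl, one_smul]
  have e1 : Nat.card {a : A // ∀ s, IsUnit ((ρ.toAddMonoidHom.comp A.subtype) a s)} =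
      Nat.card {g : Matrix (Fin n) (Fin n) K // g * u = u * g ∧ IsUnit g} :=
    Nat.card_congr ((Equiv.subtypeEquivRight fun a : A => (h2 a a.2).symm).trans
      (Equiv.subtypeSubtypeEquivSubtypeInter _ _))
  have e2 : Nat.card {a : H // ∀ s, ((ρ.toAddMonoidHom.comp H.subtype) a s * 1 =
        1 * (ρ.toAddMonoidHom.comp H.subtype) a s ∧ cjT q ((ρ.toAddMonoidHom.comp H.subtype) a s) =
        (ρ.toAddMonoidHom.comp H.subtype) a s) ∧ IsUnit ((ρ.toAddMonoidHom.comp H.subtype) a s)} =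
      Nat.card {g : Matrix (Fin n) (Fin n) K // (g * u = u * g ∧ cjT q g = g) ∧ IsUnit g} :=
    Nat.card_congr ((Equiv.subtypeEquivRight fun a : H => ⟨fun h => (h2 a a.2.1).2 fun s => (h s).2,
      fun h s => ⟨⟨by simp, (h1 a a.2.1 s).symm.trans (congrArg (ρ · s) a.2.2)⟩, (h2 a a.2.1).1 h s⟩⟩).trans
      (Equiv.subtypeSubtypeEquivSubtypeInter _ _))
  have e3 : Nat.card (ρ.toAddMonoidHom.comp A.subtype).ker =
      Nat.card (ρ.toAddMonoidHom.comp H.subtype).ker ^ 2 := by
    have := card_eq_herm_sq (q := q) (fun a => a * u = u * a ∧ ρ a = 0)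
      (fun a b ha hb => ⟨A.add_mem ha.1 hb.1, by rw [map_add, ha.2, hb.2, add_zero]⟩)
      (fun c a ha => ⟨by rw [smul_mul_assoc, mul_smul_comm, ha.1], by rw [map_smul, ha.2, smul_zero]⟩)
      fun a ha => ⟨cjT_comm_of_comm hu ha.1, funext fun s => by rw [h1 a ha.1, ha.2]; exact map_zero _⟩
    refine (Nat.card_congr (Equiv.subtypeSubtypeEquivSubtypeInter _ fun a => ρ a = 0)).trans
      (this.trans ?_)
    congr 1
    exact Nat.card_congr ((Equiv.subtypeEquivRight fun a => and_right_comm).trans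
      (Equiv.subtypeSubtypeEquivSubtypeInter _ fun a => ρ a = 0).symm)
  have o1 := fun s : Fin M => card_comm_unit (q := q) (u := (1 : Matrix {k // d k = s} {k // d k = s} K))
    (by rw [cjT_one, mul_one])
  have g1 : ∀ s : Fin M, Nat.card {b : Matrix {k // d k = s} {k // d k = s} K // IsUnit b} =
      Nat.card (GL {k // d k = s} K) := fun s => (Nat.card_congr (Equiv.ofBijective
        (fun g : GL {k // d k = s} K => (⟨g.1, g.isUnit⟩ : {b // IsUnit b}))
        ⟨fun g h e => Units.ext (congrArg Subtype.val e), fun b => ⟨b.2.unit, rfl⟩⟩)).symm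
  have g2 : ∀ s : Fin M, Nat.card {b : Matrix {k // d k = s} {k // d k = s} K // b * 1 = 1 * b ∧ IsUnit b} =
      Nat.card (GL {k // d k = s} K) := fun s =>
    (Nat.card_congr (Equiv.subtypeEquivRight fun b => by simp)).trans (g1 s)
  rw [e1, e3, Nat.card_congr Equiv.subtypePiEquivPi, Nat.card_pi] at c1
  rw [e2, Nat.card_congr (Equiv.subtypePiEquivPi (p := fun (s : Fin M)
    (b : Matrix {k // d k = s} {k // d k = s} K) => (b * 1 = 1 * b ∧ cjT q b = b) ∧ IsUnit b)),
    Nat.card_pi] at c2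
  simp only [g1] at c1
  simp only [g2, card_unitary] at o1
  have c3 := card_comm_unit_gl u
  rw [hs.centCard_eq, centCard_modT_unipotent d hd hM, hK.out, c1,
    ← Fin.prod_univ_eq_prod_range (fun s => Nat.card (GL {k // d k = s} K)), ← pow_mul, mul_comm 2,
    pow_mul] at c3
  have c4 := Nat.pow_left_injective two_ne_zero (Nat.eq_of_mul_eq_mul_right
    (Finset.prod_pos fun _ _ => Nat.card_pos) c3)
  have c5 := card_comm_unit hu
  rw [c1, c2, c4, Finset.prod_congr rfl fun s _ => o1 s, Finset.prod_mul_distrib] at c5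
  rw [← Fin.prod_univ_eq_prod_range (fun s => Nat.card (GU (Fintype.card {k // d k = s}) K q))]
  have p1 : 0 < q := by have := H10.two_le_q K q; omega
  have p2 : 0 < ∏ s : Fin M, Nat.card {H : Matrix {k // d k = s} {k // d k = s} K //
      (H * 1 = 1 * H ∧ cjT q H = H) ∧ IsUnit H} := Finset.prod_pos fun s _ => by
    haveI : Nonempty {H : Matrix {k // d k = s} {k // d k = s} K //
      (H * 1 = 1 * H ∧ cjT q H = H) ∧ IsUnit H} := ⟨⟨1, ⟨rfl, cjT_one⟩, isUnit_one⟩⟩
    exact Nat.card_pos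
  exact Nat.eq_of_mul_eq_mul_right (Nat.mul_pos (pow_pos p1 _) p2) (c5.symm.trans (by ring))

end Cfsg.Agent.H67
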