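import Cfsg.Agent.H27.Count
import Cfsg.Agent.H27.WittFam
import Cfsg.Agent.H10.UBase
import Cfsg.Agent.H9.Perp

/-! Counting totally isotropic frames in a unitary space. -/

set_option autoImplicit false

namespace Cfsg.Agent.H67

open Matrix Module Cfsg.Geo H10

variable {F : Type*} [Field F] [Fintype F] {q : ℕ} [hF : Fact (Fintype.card F = q ^ 2)] {n : ℕ}

local notation "σ" => H10.cj F q
local notation "𝐡" => hermForm n F q

/-- The number of isotropic vectors in a unitary space of dimension `m`. -/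
noncomputable def isoZ (F : Type*) [Field F] (q m : ℕ) : ℕ := Nat.card {v : Fin m → F // hermForm m F q v v = 0}

theorem card_iso_nondeg {U : Submodule F (Fin n → F)} (hU : IsNondegenerateOn 𝐡 U) :
    Nat.card {u : U // 𝐡 u u = 0} = isoZ F q (finrank F U) := by
  obtain ⟨b, hb⟩ := exists_orthonormal_basis (κ := Fin (finrank F U)) isSesq_herm hU (Fintype.card_fin _).symm
  refine Nat.card_congr (Equiv.subtypeEquiv b.equivFun.toEquiv fun u => ?_)
  have : (u : Fin n → F) = ∑ i, b.equivFun u i • (b i : Fin n → F) := by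
    have := congrArg U.subtype (b.sum_equivFun u).symm
    rw [map_sum] at this
    exact this
  have e : 𝐡 u u = hermForm _ F q (b.equivFun u) (b.equivFun u) := by
    rw [this, herm_sum_left, herm_eq (b.equivFun u)]
    refine Finset.sum_congr rfl fun i _ => ?_
    rw [herm_sum_right]
    simp only [herm_smul_left, herm_smul_right, hb]
    simp [mul_comm]
  rw [e]; rfl

theorem card_iso_perp {W : Submodule F (Fin n → F)} (hW : ∀ u ∈ W, ∀ v ∈ W, 𝐡 u v = 0) :
    Nat.card {a : Fin n → F // a ∈ H9.perp (isSesq_herm (q := q)) W ∧ 𝐡 a a = 0} =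
      (q ^ 2) ^ finrank F W * isoZ F q (n - 2 * finrank F W) := by
  have hf := isSesq_herm (F := F) (q := q) (n := n)
  obtain ⟨C, hC⟩ := W.exists_isCompl
  have hle : W ≤ H9.perp hf W := fun u hu v hv => hW u hu v hv
  let U := C ⊓ H9.perp hf W
  have h0 : Disjoint W U := hC.disjoint.mono_right inf_le_left
  have h1 : W ⊔ U = H9.perp hf W := by rw [← sup_inf_assoc_of_le C hle, hC.sup_eq_top, top_inf_eq]
  have hU : IsNondegenerateOn 𝐡 U := by
    rw [H9.nondegOn_iff hf, eq_bot_iff]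
    intro u hu
    refine h0.le_bot ⟨?_, hu.1⟩
    rw [← H9.perp_perp hf W]
    intro v hv
    rw [← h1] at hv
    obtain ⟨w, hw, x, hx, rfl⟩ := Submodule.mem_sup.1 hv
    rw [herm_add_right, hu.1.2 w hw, hu.2 x hx, add_zero]
  have hd : finrank F U = n - 2 * finrank F W := by
    have e1 := Submodule.finrank_sup_add_finrank_inf_eq W U
    have e2 := H9.finrank_add_finrank_perp hf W
    rw [h1, h0.eq_bot, finrank_bot] at e1
    rw [Fintype.card_fin] at e2
    omega
  have key : ∀ (w : W) (u : U), 𝐡 (w + u) (w + u) = 𝐡 u u := fun w u => by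
    have e := u.2.2 w w.2
    rw [herm_add_left, herm_add_right, herm_add_right, hW _ w.2 _ w.2, e, herm_swap_zero e]
    simp
  rw [← hd, ← card_iso_nondeg hU, ← hF.out, ← Nat.card_eq_fintype_card, ← Module.natCard_eq_pow_finrank (K := F),
    ← Nat.card_prod]
  refine (Nat.card_eq_of_bijective (fun p : W × {u : U // 𝐡 u u = 0} =>
    (⟨p.1 + p.2, add_mem (hle p.1.2) p.2.1.2.2, (key _ _).trans p.2.2⟩ :
      {a : Fin n → F // a ∈ H9.perp hf W ∧ 𝐡 a a = 0})) ⟨?_, ?_⟩).symm
  · rintro ⟨w, u, hu⟩ ⟨w', u', hu'⟩ e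
    have e1 : (w : Fin n → F) + u = w' + u' := congrArg Subtype.val e
    have e2 : (w : Fin n → F) - w' = u' - u := by rw [sub_eq_sub_iff_add_eq_add, e1, add_comm]
    have e3 : (w : Fin n → F) - w' = 0 :=
      h0.le_bot ⟨sub_mem w.2 w'.2, by rw [e2]; exact sub_mem u'.2 u.2⟩
    obtain rfl : w = w' := Subtype.ext (sub_eq_zero.1 e3)
    obtain rfl : u = u' := Subtype.ext (add_left_cancel e1)
    rfl
  · rintro ⟨a, ha, h⟩
    obtain ⟨w, hw, u, hu, rfl⟩ := Submodule.mem_sup.1 (h1 ▸ ha)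
    exact ⟨(⟨w, hw⟩, ⟨⟨u, hu⟩, (key ⟨w, hw⟩ ⟨u, hu⟩).symm.trans h⟩), rfl⟩

theorem span_iso {κ : Type*} {y : κ → Fin n → F} (h : ∀ i j, 𝐡 (y i) (y j) = 0) :
    ∀ u ∈ Submodule.span F (Set.range y), ∀ v ∈ Submodule.span F (Set.range y), 𝐡 u v = 0 := by
  have hf := isSesq_herm (F := F) (q := q) (n := n)
  have h1 : ∀ a, (∀ j, 𝐡 (y j) a = 0) → ∀ u ∈ Submodule.span F (Set.range y), 𝐡 u a = 0 := fun a ha u hu =>
    (show Submodule.span F (Set.range y) ≤ LinearMap.ker (hermL q a) from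
      Submodule.span_le.2 (by rintro _ ⟨j, rfl⟩; exact ha j)) hu
  exact fun u hu v hv => h1 v (fun j => herm_swap_zero (h1 _ (fun i => h i j) v hv)) u hu

theorem card_li_herm (k : ℕ) :
    Nat.card {y : Fin k → Fin n → F // LinearIndependent F y ∧ ∀ i j, 𝐡 (y i) (y j) = 0} =
      ∏ i ∈ Finset.range k, (q ^ 2) ^ i * (isoZ F q (n - 2 * i) - 1) := by
  classical
  have hf := isSesq_herm (F := F) (q := q) (n := n)
  induction k with
  | zero =>
    rw [Finset.prod_range_zero, Nat.card_eq_one_iff_unique]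
    exact ⟨⟨fun a b => Subtype.ext (Subsingleton.elim _ _)⟩,
      ⟨⟨Fin.elim0, linearIndependent_empty_type, fun i => i.elim0⟩⟩⟩
  | succ k ih =>
    have h1 : ∀ {y : Fin k → Fin n → F} {a}, (∀ j, 𝐡 (y j) a = 0) →
        a ∈ H9.perp hf (Submodule.span F (Set.range y)) := fun {y a} ha u hu => herm_swap_zero
      ((show Submodule.span F (Set.range y) ≤ LinearMap.ker (hermL q a) from
        Submodule.span_le.2 (by rintro _ ⟨j, rfl⟩; exact ha j)) hu)
    let e : {y : Fin (k + 1) → Fin n → F // LinearIndependent F y ∧ ∀ i j, 𝐡 (y i) (y j) = 0} ≃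
        Σ s : {y : Fin k → Fin n → F // LinearIndependent F y ∧ ∀ i j, 𝐡 (y i) (y j) = 0},
          ({a | a ∈ H9.perp hf (Submodule.span F (Set.range s.1)) ∧ 𝐡 a a = 0} \
            (Submodule.span F (Set.range s.1) : Set (Fin n → F)) : Set (Fin n → F)) :=
      { toFun := fun y => ⟨⟨Fin.tail y.1, (linearIndependent_finSucc.1 y.2.1).1,
            fun i j => y.2.2 _ _⟩, y.1 0, ⟨h1 fun i => y.2.2 _ _, y.2.2 _ _⟩,
            (linearIndependent_finSucc.1 y.2.1).2⟩
        invFun := fun s => ⟨Fin.cons s.2.1 s.1.1, linearIndependent_finCons.2 ⟨s.1.2.1, s.2.2.2⟩,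
          fun i j => by
            have h : ∀ j, 𝐡 s.2.1 (s.1.1 j) = 0 := fun j => s.2.2.1.1 _ (Submodule.subset_span ⟨j, rfl⟩)
            refine Fin.cases ?_ (fun i => ?_) i <;> refine Fin.cases ?_ (fun j => ?_) j
            · exact s.2.2.1.2
            · simpa using h j
            · simpa using herm_swap_zero (h i)
            · simpa using s.1.2.2 i j⟩
        left_inv := fun y => Subtype.ext (Fin.cons_self_tail y.1)
        right_inv := fun s => rfl }
    have hc : ∀ s : {y : Fin k → Fin n → F // LinearIndependent F y ∧ ∀ i j, 𝐡 (y i) (y j) = 0},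
        Nat.card ({a | a ∈ H9.perp hf (Submodule.span F (Set.range s.1)) ∧ 𝐡 a a = 0} \
            (Submodule.span F (Set.range s.1) : Set (Fin n → F)) : Set (Fin n → F)) =
          (q ^ 2) ^ k * (isoZ F q (n - 2 * k) - 1) := by
      intro s
      have hW := span_iso s.2.2
      have hr : finrank F (Submodule.span F (Set.range s.1)) = k := by
        rw [finrank_span_eq_card s.2.1, Fintype.card_fin]
      have h2 := card_iso_perp hW
      have h3 : Nat.card (Submodule.span F (Set.range s.1) : Set (Fin n → F)) = (q ^ 2) ^ k := by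
        have := Module.natCard_eq_pow_finrank (K := F) (V := Submodule.span F (Set.range s.1))
        rwa [hr, Nat.card_eq_fintype_card (α := F), hF.out] at this
      rw [hr] at h2
      rw [Nat.card_coe_set_eq, Set.ncard_sdiff (by exact fun u hu => ⟨fun v hv => hW u hu v hv, hW u hu u hu⟩),
        ← Nat.card_coe_set_eq, ← Nat.card_coe_set_eq, h3, Nat.mul_sub, mul_one, ← h2]
      rfl
    rw [Nat.card_congr e, Nat.card_sigma, Finset.sum_congr rfl fun s _ => hc s, Finset.sum_const,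
      Finset.card_univ, ← Nat.card_eq_fintype_card, ih, Finset.prod_range_succ, smul_eq_mul]

theorem card_GU_add_two (l : ℕ) :
    Nat.card (GU (l + 2) F q) = q ^ (2 * l + 1) * (isoZ F q (l + 2) - 1) * Nat.card (GU l F q) := by
  rw [card_GU_succ, card_GU_succ, isoZ, card_norm_zero, Nat.add_sub_cancel, show l + 2 - 1 = l + 1 from rfl]
  by_cases h : Even l
  · rw [if_pos (by grind), if_neg (by grind), if_pos (by grind)]; ring
  · rw [if_neg (by grind), if_pos (by grind), if_neg (by grind)]; ring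

theorem card_GU_frames (k : ℕ) : ∀ l, Nat.card (GU (l + 2 * k) F q) =
    (∏ i ∈ Finset.range k, (q ^ 2) ^ i * (isoZ F q (l + 2 * k - 2 * i) - 1)) * q ^ (k * (2 * l + k)) *
      Nat.card (GU l F q) := by
  induction k with
  | zero => simp
  | succ k ih =>
    intro l
    rw [Finset.prod_range_succ, show l + 2 * (k + 1) = l + 2 + 2 * k by ring, ih, card_GU_add_two,
      Nat.add_sub_cancel]
    ring

theorem isoZ_sub_pos {m : ℕ} (hm : 2 ≤ m) : 0 < isoZ F q m - 1 := by
  obtain ⟨l, rfl⟩ := Nat.exists_eq_add_of_le' hm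
  have h : 0 < Nat.card (GU (l + 2) F q) := Nat.card_pos
  rw [card_GU_add_two] at h
  exact Nat.pos_of_mul_pos_left (Nat.pos_of_mul_pos_right h)

theorem gu_witt_family {κ : Type*} {u v : κ → Fin n → F} (hu : LinearIndependent F u) (hv : LinearIndependent F v)
    (huv : ∀ i j, 𝐡 (u i) (u j) = 𝐡 (v i) (v j)) : ∃ g : GU n F q, ∀ i, gm g *ᵥ u i = v i := by
  have hf := isSesq_herm (F := F) (q := q) (n := n)
  obtain ⟨g, h1, h2⟩ := H27.witt_herm_family sig_ringHom_ne sig_sig (sesqL hf)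
    (fun x hx => eq_zero_of_herm_right hx) ⟨fun x y => cj_herm y x⟩ hu hv fun i j => huv j i
  refine ⟨mkGU (LinearMap.toMatrix' g.toLinearMap) fun x y => ?_, fun i => ?_⟩
  · rw [LinearMap.toMatrix'_mulVec, LinearMap.toMatrix'_mulVec]; exact h1 y x
  · exact (LinearMap.toMatrix'_mulVec _ _).trans (h2 i)

/-- The natural representation of `GU`. -/
abbrev guMat (n : ℕ) (F : Type*) [Field F] (q : ℕ) : GU n F q →* Matrix (Fin n) (Fin n) F :=
  (Units.coeHom _).comp (GU n F q).subtype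

theorem card_GU_stab {l k : ℕ} (hn : n = l + 2 * k) (W : Submodule F (Fin n → F)) (hWk : finrank F W = k)
    (hW : ∀ u ∈ W, ∀ v ∈ W, 𝐡 u v = 0) :
    Nat.card (stabilizing (guMat n F q) (W : Set (Fin n → F))) =
      q ^ (k * (2 * l + k)) * (∏ i : Fin k, ((q ^ 2) ^ k - (q ^ 2) ^ (i : ℕ))) * Nat.card (GU l F q) := by
  classical
  let b := Module.finBasisOfFinrankEq F W hWk
  let x : Fin k → Fin n → F := fun i => b i
  have hx : LinearIndependent F x := b.linearIndependent.map' W.subtype W.ker_subtype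
  have hxW : ∀ i, x i ∈ W := fun i => (b i).2
  have hsp : W ≤ Submodule.span F (Set.range x) := by
    intro v hv
    have : v = ∑ i, b.repr ⟨v, hv⟩ i • x i := by
      have := congrArg W.subtype (b.sum_repr ⟨v, hv⟩).symm
      rw [map_sum] at this
      exact this
    rw [this]
    exact Submodule.sum_mem _ fun i _ => Submodule.smul_mem _ _ (Submodule.subset_span ⟨i, rfl⟩)
  have h := H27.card_mul_orbit (guMat n F q) x (stabilizing (guMat n F q) W)
    (fun g hg => H27.mem_stabilizing_of_span _ hsp fun i => by rw [hg i]; exact hxW i)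
  have e1 : Nat.card {y : Fin k → Fin n → F // ∃ g, ∀ i, guMat n F q g *ᵥ x i = y i} =
      ∏ i ∈ Finset.range k, (q ^ 2) ^ i * (isoZ F q (n - 2 * i) - 1) := by
    rw [← card_li_herm]
    refine Nat.card_congr (Equiv.subtypeEquivRight fun y => ⟨?_, fun hy => ?_⟩)
    · rintro ⟨g, h⟩
      exact ⟨H27.li_of_rep _ hx h, fun i j => by
        rw [← h i, ← h j]; exact (gm_isIsom g _ _).trans (hW _ (hxW i) _ (hxW j))⟩
    · exact gu_witt_family hx hy.1 fun i j => by rw [hW _ (hxW i) _ (hxW j), hy.2]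
  have e2 : Nat.card {y : Fin k → Fin n → F // ∃ g ∈ stabilizing (guMat n F q) (W : Set (Fin n → F)), ∀ i,
      guMat n F q g *ᵥ x i = y i} = ∏ i : Fin k, ((q ^ 2) ^ k - (q ^ 2) ^ (i : ℕ)) := by
    have := H27.card_li_in W (k := k) hWk.ge
    rw [hWk, hF.out] at this
    rw [← this]
    refine Nat.card_congr (Equiv.subtypeEquivRight fun y => ⟨?_, fun hy => ?_⟩)
    · rintro ⟨g, hg, h⟩
      exact ⟨H27.li_of_rep _ hx h, fun i => by rw [← h i]; exact (hg _).1 (hxW i)⟩
    · obtain ⟨g, hg⟩ := gu_witt_family (q := q) hx hy.1 fun i j => by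
        rw [hW _ (hxW i) _ (hxW j), hW _ (hy.2 i) _ (hy.2 j)]
      exact ⟨g, H27.mem_stabilizing_of_span _ hsp fun i => by
        rw [show guMat n F q g *ᵥ x i = y i from hg i]; exact hy.2 i, hg⟩
  rw [e1, e2] at h
  subst hn
  have hq := two_le_q F q
  have hpos : 0 < ∏ i ∈ Finset.range k, (q ^ 2) ^ i * (isoZ F q (l + 2 * k - 2 * i) - 1) :=
    Finset.prod_pos fun i hi => Nat.mul_pos (by positivity) (isoZ_sub_pos (by have := Finset.mem_range.1 hi; omega))
  apply Nat.eq_of_mul_eq_mul_right hpos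
  rw [h, card_GU_frames]
  ring

theorem exists_stab_det (hn : 1 ≤ n) (W : Submodule F (Fin n → F)) (hW : ∀ u ∈ W, ∀ v ∈ W, 𝐡 u v = 0) {t : Fˣ}
    (ht : t ∈ (guDet n F q).range) : ∃ g ∈ stabilizing (guMat n F q) (W : Set (Fin n → F)), guDet n F q g = t := by
  by_cases h0 : W = ⊥
  · obtain ⟨g, rfl⟩ := ht
    refine ⟨g, H27.mem_stabilizing_of_mapsTo _ W fun v hv => ?_, rfl⟩
    rw [h0, Submodule.mem_bot] at hv
    rw [hv, mulVec_zero]; exact W.zero_mem
  obtain ⟨e, he, e0⟩ := W.ne_bot_iff.1 h0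
  have ee := hW e he e he
  obtain ⟨f, ff, fe⟩ := exists_hyperbolic_partner ee e0
  have ef := herm_swap_one fe
  rw [range_guDet hn, MonoidHom.mem_ker, powMonoidHom_apply] at ht
  obtain ⟨a, a0, ha⟩ := exists_div_cj_eq (q := q) (t := (t : F)) (by
    rw [mul_cj_eq_pow, ← Units.val_pow_eq_pow_val, ht, Units.val_one])
  have a0' : σ a ≠ 0 := cj_ne_zero.2 a0
  have hM : ∀ x, (rk1 q ((a - 1) • e) f * rk1 q (((σ a)⁻¹ - 1) • f) e) *ᵥ x =
      x + (𝐡 x e * ((σ a)⁻¹ - 1)) • f + (𝐡 x f * (a - 1)) • e := fun x => by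
    rw [← mulVec_mulVec, rk1_mulVec, rk1_mulVec, herm_add_left, herm_smul_left, herm_smul_left, ff, smul_smul,
      smul_smul]
    simp
  have hI : IsIsom q (rk1 q ((a - 1) • e) f * rk1 q (((σ a)⁻¹ - 1) • f) e) := fun x y => by
    rw [hM, hM]
    simp only [herm_add_left, herm_add_right, herm_smul_left, herm_smul_right, ee, ff, ef, fe, map_mul, map_sub,
      map_one, map_inv₀, cj_cj, cj_herm]
    field_simp
    ring
  refine ⟨mkGU _ hI, H27.mem_stabilizing_of_mapsTo _ W fun v hv => ?_, Units.ext ?_⟩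
  · change (rk1 q ((a - 1) • e) f * rk1 q (((σ a)⁻¹ - 1) • f) e) *ᵥ v ∈ W
    rw [hM, hW v hv e he, zero_mul, zero_smul, add_zero]
    exact add_mem hv (W.smul_mem _ he)
  · rw [coe_guDet, gm, coe_mkGU, det_mul, det_rk1, det_rk1, herm_smul_left, herm_smul_left, ef, fe, ← ha]
    field_simp
    ring

theorem card_SU_stab (hn : 1 ≤ n) (W : Submodule F (Fin n → F)) (hW : ∀ u ∈ W, ∀ v ∈ W, 𝐡 u v = 0) :
    (q + 1) * Nat.card ((stabilizing (slToMat n F) (W : Set (Fin n → F))).subgroupOf (SU n F q)) =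
      Nat.card (stabilizing (guMat n F q) (W : Set (Fin n → F))) := by
  let P := stabilizing (guMat n F q) (W : Set (Fin n → F))
  let f := (guDet n F q).comp P.subtype
  have h1 : f.range = (guDet n F q).range := le_antisymm (by rintro _ ⟨g, rfl⟩; exact ⟨g, rfl⟩) fun t ht => by
    obtain ⟨g, hg, rfl⟩ := exists_stab_det hn W hW ht
    exact ⟨⟨g, hg⟩, rfl⟩
  rw [← f.ker.index_mul_card, Subgroup.index_ker, h1, range_guDet hn, card_ker_pow_succ]
  congr 1
  refine Nat.card_eq_of_bijective (fun g => ⟨⟨suToGU n F q g, g.2⟩, ?_⟩) ⟨fun g g' e => ?_, ?_⟩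
  · change suToGU n F q g ∈ (guDet n F q).ker
    rw [ker_guDet]; exact ⟨_, rfl⟩
  · exact Subtype.ext (suToGU_injective (congrArg (fun w => w.1.1) e))
  · rintro ⟨⟨g, hg⟩, hk⟩
    change g ∈ (guDet n F q).ker at hk
    rw [ker_guDet] at hk
    obtain ⟨g, rfl⟩ := hk
    exact ⟨⟨g, hg⟩, rfl⟩

end Cfsg.Agent.H67
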